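import Cfsg.Agent.CoI.A

/-! Pairs of large extraspecial subgroups of order `2^9`. -/

set_option autoImplicit false
set_option linter.unusedSectionVars false

namespace Cfsg.Agent.CoI

open Cfsg Subgroup LocalEven Fischer PLocal Orth QuadraticMap Module

theorem negv (v : V) : -v = v := neg_eq_of_add_eq_zero_left (vv v)
theorem subv (u v : V) : u - v = u + v := by rw [sub_eq_add_neg, negv]
theorem pvv (v : V) : polar q v v = 0 := by rw [p_self, two0, zero_mul]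
theorem ne01 {c : ZMod 2} : c ≠ 0 ↔ c = 1 := by revert c; decide

theorem om_fix (σ : OG q) {v : V} (hv : q v ≠ 0) :
    ∃ τ ∈ Om, ∀ x, polar q v x = 0 → τ.1 x = σ.1 x := by
  by_cases h : Even (rk σ)
  · exact ⟨σ, (dk σ).2 h, fun _ _ => rfl⟩
  · refine ⟨σ * refl q v, (dk _).2 ?_, fun x hx => by rw [OG.mul_apply, refl_apply_of_orth hx]⟩
    rw [nd.even_rk_mul']
    exact iff_of_false h (nd.odd_rk_refl hv)

theorem eich_Om (u v : V) : eich q u v ∈ Om := nd.eich_mem_commutator good u v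

theorem eich_ap {e w : V} (he : q e = 0) (hw : polar q e w = 0) (x : V) :
    (eich q e w).1 x = x + (polar q w x - q w * polar q e x) • e + polar q e x • w := by
  rw [eich_apply he hw, subv]

variable {G : Type*} [Group G] [Finite G] {Q R : Subgroup G} {z s : G} {χ : G → V}

theorem Act.mul (h : LS Q z) {g k : G} {σ τ : OG q} (a : Act Q z χ g σ) (b : Act Q z χ k τ) :
    Act Q z χ (g * k) (σ * τ) :=
  ⟨a.1.mul_left b.1, fun x hx => by
    rw [OG.mul_apply, ← b.2 x hx, ← a.2 _ (h.norm k b.1 x hx)]; congr 1; group⟩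

theorem Act.inv (h : LS Q z) {g : G} {σ : OG q} (a : Act Q z χ g σ) : Act Q z χ g⁻¹ σ⁻¹ :=
  ⟨a.1.inv_left, fun x hx => by
    have := a.2 _ (h.norm g⁻¹ a.1.inv_left x hx)
    rw [show g * (g⁻¹ * x * g⁻¹⁻¹) * g⁻¹ = x by group] at this
    rw [this, OG.inv_apply_self]⟩

theorem Act.conj (h : LS Q z) {g k : G} {σ τ : OG q} (a : Act Q z χ g σ) (b : Act Q z χ k τ) :
    Act Q z χ (g * k * g⁻¹) (σ * τ * σ⁻¹) := (a.mul h b).mul h (a.inv h)

/-- the four-group -/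
def InU (z s u : G) : Prop := u = 1 ∨ u = z ∨ u = s ∨ u = z * s

namespace CO
variable (h : CO Q z χ)
include h

theorem one : χ 1 = 0 := (h.zero 1 (one_mem _)).2 (.inl rfl)
theorem chz : χ z = 0 := (h.zero z h.mem).2 (.inr rfl)
theorem inv {a : G} (ha : a ∈ Q) : χ a⁻¹ = χ a := by
  have := h.mul _ (inv_mem ha) _ ha
  rw [inv_mul_cancel, h.one] at this
  rw [eq_neg_of_add_eq_zero_left this.symm, negv]

theorem com {a b : G} (ha : a ∈ Q) (hb : b ∈ Q) : Commute a b ↔ polar q (χ a) (χ b) = 0 := by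
  have := es_sq_mul h.toES ha hb
  rw [h.sq' _ (mul_mem ha hb), h.sq' _ ha, h.sq' _ hb, h.mul _ ha _ hb, q_add] at this
  generalize q (χ a) = x, q (χ b) = y, polar q (χ a) (χ b) = p at this ⊢
  rcases z01 x with rfl | rfl <;> rcases z01 y with rfl | rfl <;> rcases z01 p with rfl | rfl <;>
    first | simpa using this | simpa [show (1 + 1 : ZMod 2) = 0 from rfl] using this

theorem eqor {a b : G} (ha : a ∈ Q) (hb : b ∈ Q) (e : χ a = χ b) : a = b ∨ a = b * z := by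
  have := (h.zero _ (mul_mem (inv_mem hb) ha)).1 (by rw [h.mul _ (inv_mem hb) _ ha, h.inv hb, e, vv])
  exact this.imp (fun e => (inv_mul_eq_one.1 e).symm) inv_mul_eq_iff_eq_mul.1

theorem uniq {g : G} {σ τ : OG q} (a : Act Q z χ g σ) (b : Act Q z χ g τ) : σ = τ :=
  OG.ext fun v => by
    obtain ⟨x, hx, rfl⟩ := h.surj v
    rw [← a.2 x hx, b.2 x hx]

theorem act_one {g : G} : Act Q z χ g 1 ↔ g ∈ Q := by
  refine ⟨fun a => h.toLS.mem_of_trivial a.1 fun x hx =>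
    h.eqor (h.norm g a.1 x hx) hx (a.2 x hx), fun hg => ⟨(h.central g hg).symm, fun x hx => ?_⟩⟩
  rw [h.mul _ (mul_mem hg hx) _ (inv_mem hg), h.mul _ hg _ hx, h.inv hg, add_right_comm, vv,
    zero_add, OG.one_apply]

theorem diff {g k : G} {σ : OG q} (a : Act Q z χ g σ) (b : Act Q z χ k σ) : g * k⁻¹ ∈ Q :=
  h.act_one.1 (mul_inv_cancel σ ▸ a.mul h.toLS (b.inv h.toLS))

theorem mulQ {g k : G} {σ : OG q} (hg : g ∈ Q) (b : Act Q z χ k σ) : Act Q z χ (g * k) σ :=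
  one_mul σ ▸ (h.act_one.2 hg).mul h.toLS b

theorem mem_Om {g : G} {σ : OG q} (a : Act Q z χ g σ) : σ ∈ Om := by
  obtain ⟨τ, h1, h2⟩ := h.ex g a.1
  rwa [h.uniq a h2]

theorem lift_to {σ : OG q} (hσ : σ ∈ Om) {x y : G} (hx : x ∈ Q) (hy : y ∈ Q) (h1 : y ≠ 1)
    (h2 : y ≠ z) (e : σ.1 (χ x) = χ y) : ∃ g, Act Q z χ g σ ∧ g * x * g⁻¹ = y := by
  obtain ⟨g, a⟩ := h.lift σ hσ
  rcases h.eqor (h.norm g a.1 x hx) hy ((a.2 x hx).trans e) with e | e
  · exact ⟨g, a, e⟩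
  · obtain ⟨k, hk, e'⟩ := h.toES.exists_conj hy h1 h2
    refine ⟨k⁻¹ * g, h.mulQ (inv_mem hk) a, ?_⟩
    rw [show k⁻¹ * g * x * (k⁻¹ * g)⁻¹ = k⁻¹ * (g * x * g⁻¹) * k by group, e, ← e']
    group

theorem conj_invol {x y : G} (hx : x ∈ Q) (hy : y ∈ Q) (x1 : x ≠ 1) (xz : x ≠ z) (x2 : x * x = 1)
    (y1 : y ≠ 1) (yz : y ≠ z) (y2 : y * y = 1) : ∃ g, Commute g z ∧ g * x * g⁻¹ = y := by
  obtain ⟨σ, e⟩ := witt_one nd (u := χ x) (v := χ y) (fun e => by simpa [*] using (h.zero x hx).1 e)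
    (fun e => by simpa [*] using (h.zero y hy).1 e)
    (((h.sq' x hx).1 x2).trans ((h.sq' y hy).1 y2).symm)
  obtain ⟨v, h1, -, h2⟩ := nd.exists_nonsingular_perp_pair (u := χ x) (v := χ x) (by rw [dim]; norm_num)
  obtain ⟨τ, h3, h4⟩ := om_fix σ h2
  obtain ⟨g, a, e'⟩ := h.lift_to h3 hx hy y1 yz ((h4 _ (by rwa [polar_comm])).trans e)
  exact ⟨g, a.1, e'⟩

variable (p : Pr Q R z s)
include p

theorem e0 : χ s ≠ 0 := fun e => by simpa [p.ne, p.r.ne] using (h.zero s p.hs).1 e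
theorem qe : q (χ s) = 0 := (h.sq' s p.hs).1 p.r.zsq

theorem inU_of {x : G} (hx : x ∈ Q) (e : χ x ∈ Submodule.span (ZMod 2) {χ s}) : InU z s x := by
  obtain ⟨c, hc⟩ := Submodule.mem_span_singleton.1 e
  rcases z01 c with rfl | rfl
  · rw [zero_smul] at hc
    exact ((h.zero x hx).1 hc.symm).elim .inl fun e => .inr (.inl e)
  · rw [one_smul] at hc
    exact .inr (.inr ((h.eqor hx p.hs hc.symm).imp id fun e => e.trans p.comm.symm.eq))

theorem inf {x : G} (hx : x ∈ Q) (hx' : x ∈ R) : InU z s x := by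
  by_contra hn
  have h1 : χ x ∉ Submodule.span (ZMod 2) {χ s} := fun e => hn (h.inU_of p hx e)
  have h2 : q (χ x) = 0 := (h.sq' x hx).1 (p.E_sq ⟨hx, hx'⟩)
  have h3 : polar q (χ s) (χ x) = 0 := (h.com p.hs hx).1 (p.r.central x hx')
  obtain ⟨w, h4, h5, h6⟩ := nd.exists_hyp_partner _ h1 h2 (fun v hv => by
    obtain ⟨c, rfl⟩ := Submodule.mem_span_singleton.1 hv
    rw [p_smul_left, h3, mul_zero])
  replace h4 := h4 _ (Submodule.mem_span_singleton_self _)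
  obtain ⟨v, h7, h8, h9⟩ := nd.exists_nonsingular_perp_pair (u := χ s) (v := χ x) (by rw [dim]; norm_num)
  obtain ⟨τ, k1, k2⟩ := om_fix (refl q (w - χ x)) h9
  obtain ⟨g, a, e⟩ := h.lift_to k1 p.hs p.hs p.r.ne p.ne ((k2 _ (by rwa [polar_comm])).trans
    (refl_apply_of_orth (by rw [polar_comm, polar_sub_right, h4, h3, sub_zero])))
  have k3 : χ (g * x * g⁻¹) = w := by
    rw [a.2 x hx, k2 _ (by rwa [polar_comm])]
    exact refl_sub_apply (h2.trans h6.symm) (by rw [polar_sub_right, h5, pvv]; decide)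
  have k4 := h.norm g a.1 x hx
  have k5 : ¬ Commute x (g * x * g⁻¹) := by rw [h.com hx k4, k3, h5]; decide
  have k6 := p.r.norm g (Inv.commute_iff_conj.2 e) x hx'
  exact p.ne (mul_left_cancel ((p.r.toES.conj_eq hx' k6 k5).symm.trans (h.toES.conj_eq hx k4 k5)))

theorem chU {u : G} (hu : InU z s u) : ∃ c : ZMod 2, χ u = c • χ s ∧ (c = 0 ↔ u = 1 ∨ u = z) := by
  have h1 := p.r.ne
  have h2 := p.ne
  have h3 : z * s ≠ 1 := fun e => h2 (by rw [eq_inv_of_mul_eq_one_right e, h.toES.zinv])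
  rcases hu with rfl | rfl | rfl | rfl
  · exact ⟨0, by rw [h.one, zero_smul], by simp⟩
  · exact ⟨0, by rw [h.chz, zero_smul], by simp⟩
  · exact ⟨1, by rw [one_smul], by simp [*]⟩
  · exact ⟨1, by rw [one_smul, h.mul _ h.mem _ p.hs, h.chz, zero_add], by simp [*]⟩

theorem comm_U {a b : G} (ha : a ∈ Q) (has : Commute a s) (hb : b ∈ R) (hbz : Commute b z) :
    InU z s (a⁻¹ * b * a * b⁻¹) := by
  refine h.inf p ?_ (mul_mem (by simpa using p.r.norm _ has.inv_left b hb) (inv_mem hb))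
  simpa only [mul_assoc] using mul_mem (inv_mem ha) (h.norm b hbz a ha)

theorem act_B {b : G} (hb : b ∈ R) (hbz : Commute b z) :
    ∃ w, polar q (χ s) w = 0 ∧ Act Q z χ b (eich q (χ s) w) := by
  obtain ⟨σ, -, a⟩ := h.ex b hbz
  obtain ⟨y, h1, h2⟩ := nd.exists_hyp (h.e0 p) (h.qe p)
  obtain ⟨w, h3, -, rfl⟩ := Classical.AutO.eq_eich_of nd (h.qe p) h2 h1 (g := σ)
    (by rw [← a.2 s p.hs, Inv.commute_iff_conj.1 (p.r.central b hb).symm]) fun v hv => by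
      obtain ⟨x, hx, rfl⟩ := h.surj v
      obtain ⟨c, e, -⟩ := h.chU p (h.comm_U p hx ((h.com p.hs hx).2 hv).symm hb hbz)
      rw [show x⁻¹ * b * x * b⁻¹ = x⁻¹ * (b * x * b⁻¹) by group,
        h.mul _ (inv_mem hx) _ (h.norm b hbz x hx), h.inv hx, a.2 x hx, add_comm, ← subv] at e
      exact Submodule.mem_span_singleton.2 ⟨c, e.symm⟩
  exact ⟨w, h3, a⟩

theorem ch_comm {a b : G} {w : V} (ha : a ∈ Q) (has : Commute a s) (hw : polar q (χ s) w = 0)
    (k : Act Q z χ b (eich q (χ s) w)) : χ (a⁻¹ * b * a * b⁻¹) = polar q w (χ a) • χ s := by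
  rw [show a⁻¹ * b * a * b⁻¹ = a⁻¹ * (b * a * b⁻¹) by group,
    h.mul _ (inv_mem ha) _ (h.norm b k.1 a ha), h.inv ha, k.2 a ha, eich_ap (h.qe p) hw,
    (h.com p.hs ha).1 has.symm, zero_smul, add_zero, mul_zero, sub_zero, ← add_assoc, vv, zero_add]

theorem ch_y {y b : G} {w : V} (hy : y ∈ Q) (hys : ¬ Commute y s) (hw : polar q (χ s) w = 0)
    (k : Act Q z χ b (eich q (χ s) w)) : ∃ c : ZMod 2, χ (y * (b * y⁻¹ * b⁻¹)) = w + c • χ s := by
  have h1 : polar q (χ s) (χ y) = 1 := ne01.1 fun e => hys ((h.com p.hs hy).2 e).symm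
  refine ⟨polar q w (χ y) - q w * 1, ?_⟩
  rw [h.mul _ hy _ (h.norm b k.1 _ (inv_mem hy)), k.2 _ (inv_mem hy), h.inv hy,
    eich_ap (h.qe p) hw, h1, one_smul, ← add_assoc, ← add_assoc, vv, zero_add, add_comm]

end CO

end Cfsg.Agent.CoI
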