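import Cfsg.Agent.CoI.B

/-! Commutators and squares in `2^{2+12}`. -/

set_option autoImplicit false
set_option linter.unusedSectionVars false

namespace Cfsg.Agent.CoI

open Cfsg Subgroup LocalEven Fischer PLocal Orth QuadraticMap Module

variable {G : Type*} [Group G] [Finite G] {Q R : Subgroup G} {z s : G} {χ : G → V}

theorem InU.memR (p : Pr Q R z s) {u : G} (hu : InU z s u) : u ∈ R := by
  rcases hu with rfl | rfl | rfl | rfl
  exacts [one_mem _, p.hz, p.r.mem, mul_mem p.hz p.r.mem]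

theorem InU.memQ (p : Pr Q R z s) {u : G} (hu : InU z s u) : u ∈ Q := by
  rcases hu with rfl | rfl | rfl | rfl
  exacts [one_mem _, p.l.mem, p.hs, mul_mem p.l.mem p.hs]

theorem InU.comm {u x : G} (hu : InU z s u) (h1 : Commute x z) (h2 : Commute x s) :
    Commute x u := by
  rcases hu with rfl | rfl | rfl | rfl
  exacts [Commute.one_right _, h1, h2, h1.mul_right h2]

theorem prop_aux {A B C D : Prop} (h : A ↔ ((D ↔ B) ↔ (C ↔ A))) (d : D) : B ↔ C := by tauto

namespace CO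
variable (h : CO Q z χ) (p : Pr Q R z s)
include h p

theorem bb {a y' : G} (hy' : y' ∈ R) (e2 : y' * z * y'⁻¹ = z * s) (ha : a ∈ Q) (has : Commute a s) :
    a⁻¹ * y' * a * y'⁻¹ ∈ R ∧ Act Q z χ (a⁻¹ * y' * a * y'⁻¹) (eich q (χ s) (χ a)) ∧
      ∀ b ∈ R, Commute b z → (Commute (a⁻¹ * y' * a * y'⁻¹) b ↔
        a⁻¹ * b * a * b⁻¹ = 1 ∨ a⁻¹ * b * a * b⁻¹ = s) := by
  obtain ⟨y, hy, e1⟩ := h.toES.exists_conj p.hs p.r.ne p.ne
  have yz := (h.central y hy).symm
  have az := (h.central a ha).symm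
  have y's := (p.r.central y' hy').symm
  have h1 : cj (y⁻¹ * y') Q = R := p.tr _ (by
    rw [show y⁻¹ * y' * z * (y⁻¹ * y')⁻¹ = y⁻¹ * (y' * z * y'⁻¹) * y by group, e2, p.comm.eq, ← e1]
    group)
  have h2 : y⁻¹ * (y' * a * y'⁻¹) * y ∈ R := by
    rw [← h1, mem_cj]; simpa [mul_assoc] using ha
  have h3 : Commute (y' * a * y'⁻¹) z := by
    rw [commute_cj_iff]
    have : y'⁻¹ * z * y' = z * s := by
      have e3 : z = y' * z * y'⁻¹ * s := by rw [e2, mul_assoc, p.r.zsq, mul_one]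
      have e4 : y'⁻¹ * (z * s) * y' = z := by rw [← e2]; group
      rw [show y'⁻¹ * z * y' = y'⁻¹ * (z * s) * y' * (y'⁻¹ * s⁻¹ * y') by group, e4,
        p.r.toES.zinv, y's.inv_left.eq, inv_mul_cancel_right]
    rw [this]
    exact az.mul_right has
  have h4 : Commute (y⁻¹ * (y' * a * y'⁻¹) * y) z := (yz.inv_left.mul_left h3).mul_left yz
  obtain ⟨w, hw, k⟩ := h.act_B p h2 h4
  have h5 : a⁻¹ * y' * a * y'⁻¹ ∈ R :=
    mul_mem (by simpa using p.r.norm _ has.inv_left y' hy') (inv_mem hy')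
  have k1 : Act Q z χ (a⁻¹ * y' * a * y'⁻¹) (eich q (χ s) w) := by
    have := h.mulQ (inv_mem ha) ((h.act_one.2 hy).conj h.toLS k)
    rw [one_mul, inv_one, mul_one] at this
    rwa [show a⁻¹ * (y * (y⁻¹ * (y' * a * y'⁻¹) * y) * y⁻¹) = a⁻¹ * y' * a * y'⁻¹ by group] at this
  have hys : ¬ Commute y s := h.toES.not_commute_of_conj e1
  obtain ⟨c, e3⟩ := h.ch_y p hy hys hw k
  have h6 := h.diff k k1
  obtain ⟨d, e4, -⟩ := h.chU p (h.inf p h6 (mul_mem h2 (inv_mem h5)))
  have e5 : χ a = w + (c + d) • χ s := by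
    rw [add_smul, ← add_assoc, ← e3, ← e4,
      ← h.mul _ (mul_mem hy (h.norm _ h4 _ (inv_mem hy))) _ h6]
    exact congrArg χ (by group)
  refine ⟨h5, by rwa [e5, eich_add_smul_self (h.qe p) hw], fun b hb hbz => ?_⟩
  have hu := h.comm_U p ha has hb hbz
  have bs := (p.r.central b hb).symm
  have huR := hu.memR p
  have uc := hu.comm k1.1 (p.r.central _ h5).symm
  have hu' : Commute (a⁻¹ * b * a * b⁻¹) y' ↔ a⁻¹ * b * a * b⁻¹ = 1 ∨ a⁻¹ * b * a * b⁻¹ = s := by
    have n1 : ¬ Commute y' z := p.r.toES.not_commute_of_conj e2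
    have n2 : ¬ Commute (z * s) y' := fun e => n1 (by
      simpa [mul_assoc, p.r.zsq] using e.symm.mul_right y's)
    have n3 : z * s ≠ 1 := fun e => n2 (e ▸ Commute.one_left _)
    rcases hu with e | e | e | e <;> rw [e]
    · simp
    · exact iff_of_false (fun e => n1 e.symm) (by simp [h.ne, p.ne.symm])
    · exact iff_of_true y's.symm (.inr rfl)
    · exact iff_of_false n2 (by simp [h.ne, n3])
  generalize hg : a⁻¹ * b * a * b⁻¹ = u at hu hu' uc huR ⊢
  generalize hg' : a⁻¹ * y' * a * y'⁻¹ = b' at uc h5 ⊢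
  have t0 : Commute (b' * y') (u * b) ↔ Commute y' b := by
    rw [← hg, ← hg', inv_mul_cancel_right, inv_mul_cancel_right]
    have := commute_cj_iff a⁻¹ y' (a⁻¹ * b * a)
    simpa [mul_assoc] using this
  have t1 := p.r.toES.commute_mul_iff h5 hy' (mul_mem huR hb)
  have t2 := p.r.toES.commute_mul_iff huR hb h5
  have t3 := p.r.toES.commute_mul_iff huR hb hy'
  rw [t0, Commute.symm_iff (a := b'), Commute.symm_iff (a := y') (b := u * b), t2, t3,
    Commute.symm_iff (a := y')] at t1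
  rw [← hu', Commute.symm_iff (a := b')]
  exact prop_aux t1 uc.symm

theorem exists_b {a : G} (ha : a ∈ Q) (has : Commute a s) :
    ∃ b' ∈ R, Act Q z χ b' (eich q (χ s) (χ a)) ∧ ∀ b ∈ R, Commute b z →
      (Commute b' b ↔ a⁻¹ * b * a * b⁻¹ = 1 ∨ a⁻¹ * b * a * b⁻¹ = s) := by
  obtain ⟨y', hy', e2⟩ := p.r.toES.exists_conj p.hz h.ne p.ne.symm
  exact ⟨_, h.bb p hy' e2 ha has⟩

theorem exists_B {w : V} (hw : polar q (χ s) w = 0) : ∃ b ∈ R, Act Q z χ b (eich q (χ s) w) := by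
  obtain ⟨a, ha, rfl⟩ := h.surj w
  obtain ⟨b, h1, h2, -⟩ := h.exists_b p ha ((h.com p.hs ha).2 hw).symm
  exact ⟨b, h1, h2⟩

theorem comm_iff {a b : G} {w : V} (ha : a ∈ Q) (has : Commute a s) (hb : b ∈ R)
    (hw : polar q (χ s) w = 0) (k : Act Q z χ b (eich q (χ s) w)) :
    (a⁻¹ * b * a * b⁻¹ = 1 ∨ a⁻¹ * b * a * b⁻¹ = z) ↔ polar q w (χ a) = 0 := by
  obtain ⟨c, e, e'⟩ := h.chU p (h.comm_U p ha has hb k.1)
  rw [h.ch_comm p ha has hw k] at e
  rw [← e', smul_left_injective _ (h.e0 p) e]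

theorem sq_B {b : G} {w : V} (hb : b ∈ R) (hw : polar q (χ s) w = 0)
    (k : Act Q z χ b (eich q (χ s) w)) : b * b = 1 ↔ q w = 0 := by
  obtain ⟨y, hy, e1⟩ := h.toES.exists_conj p.hs p.r.ne p.ne
  have yz := (h.central y hy).symm
  obtain ⟨c, e3⟩ := h.ch_y p hy (h.toES.not_commute_of_conj e1) hw k
  have bs := (p.r.central b hb).symm
  have ha := mul_mem hy (h.norm _ k.1 _ (inv_mem hy))
  have e4 : y * b * y⁻¹ = y * (b * y⁻¹ * b⁻¹) * b := by group
  generalize y * (b * y⁻¹ * b⁻¹) = a at ha e3 e4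
  have has : Commute a s := (h.com ha p.hs).2 (by
    rw [e3, polar_add_left, p_smul_left, pvv, polar_comm, hw, mul_zero, add_zero])
  obtain ⟨b', h1, h2, h3⟩ := h.exists_b p ha has
  rw [e3, eich_add_smul_self (h.qe p) hw] at h2
  have h4 := (h.inf p (h.diff h2 k) (mul_mem h1 (inv_mem hb))).comm k.1 bs
  have h5 := (h3 b hb k.1).1 (by simpa using (h4.mul_right (Commute.refl b)).symm)
  have h6 := (h.comm_iff p ha has hb hw k).2 (by
    rw [e3, polar_add_right, p_smul_right, pvv, polar_comm, hw, mul_zero, add_zero])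
  have h7 : a⁻¹ * b * a * b⁻¹ = 1 := by
    rcases h5 with e | e
    · exact e
    · rcases h6 with e' | e'
      · exact e'
      · exact absurd (e.symm.trans e') p.ne
  have h8 : Commute a b := by
    rw [mul_inv_eq_one, mul_assoc, inv_mul_eq_iff_eq_mul] at h7
    exact h7.symm
  have h9 : y * (b * b) * y⁻¹ = a * a * (b * b) := by
    rw [show y * (b * b) * y⁻¹ = y * b * y⁻¹ * (y * b * y⁻¹) by group, e4, h8.symm.mul_mul_mul_comm]
  have h10 : q (χ a) = q w := by
    rw [e3, q_add, q_smul, h.qe p, p_smul_right, polar_comm, hw]; simp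
  rw [← h10, ← h.sq' a ha]
  rcases p.r.sq b hb with e | e
  · rw [e] at h9; simpa [e] using h9.symm
  · rw [e, e1, ← p.comm.eq] at h9
    rw [e, ← mul_right_cancel h9]
    exact iff_of_false p.r.ne h.ne

theorem conj_B {a b : G} {w : V} (ha : a ∈ Q) (has : Commute a s) (hb : b ∈ R)
    (hw : polar q (χ s) w = 0) (k : Act Q z χ b (eich q (χ s) w)) :
    (polar q w (χ a) = 0 ∧ b * a = a * b) ∨ (polar q w (χ a) = 1 ∧ b * a = a * (z * s) * b) := by
  obtain ⟨b', h1, h2, h3⟩ := h.exists_b p ha has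
  have hv := (h.com p.hs ha).1 has.symm
  have h4 := es_sq_mul p.r.toES h1 hb
  have k' := h2.mul h.toLS k
  rw [eich_mul (h.qe p) hv hw] at k'
  rw [h.sq_B p (mul_mem h1 hb) (by rw [polar_add_right, hv, hw, add_zero]) k', h.sq_B p h1 hv h2,
    h.sq_B p hb hw k, q_add, h3 b hb k.1, polar_comm] at h4
  have h5 := h.comm_iff p ha has hb hw k
  have hu := h.comm_U p ha has hb k.1
  have e : b * a = a * (a⁻¹ * b * a * b⁻¹) * b := by group
  generalize a⁻¹ * b * a * b⁻¹ = u at h4 h5 hu e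
  have h6 : (u = 1 ∨ u = s) ↔ polar q w (χ a) = 0 := by
    generalize q (χ a) = x, q w = y, polar q w (χ a) = c, (u = 1 ∨ u = s) = P at h4 ⊢
    rcases z01 x with rfl | rfl <;> rcases z01 y with rfl | rfl <;> rcases z01 c with rfl | rfl <;>
      first | simpa using h4 | simpa [show (1 + 1 : ZMod 2) = 0 from rfl] using h4
  rcases z01 (polar q w (χ a)) with c | c
  · left
    refine ⟨c, ?_⟩
    rcases h6.2 c with rfl | rfl
    · simpa using e
    · rcases h5.2 c with e' | e'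
      · exact absurd e' p.r.ne
      · exact absurd e' p.ne
  · right
    refine ⟨c, ?_⟩
    rw [c] at h5 h6
    rcases hu with rfl | rfl | rfl | rfl
    · simp at h5
    · simp at h5
    · simp at h6
    · exact e

end CO

end Cfsg.Agent.CoI
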