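import Cfsg.Agent.CoI.C

/-! Involutions of `Ω₈⁺(2)` in coordinates. -/

set_option autoImplicit false
set_option linter.unusedSectionVars false
set_option linter.unusedSimpArgs false

namespace Cfsg.Agent.CoI

open Cfsg Subgroup LocalEven Fischer PLocal Orth QuadraticMap Module

def E (i : Fin 4) : V := Pi.single (.inl i) 1
def F (i : Fin 4) : V := Pi.single (.inr i) 1
abbrev ee : V := E 0
abbrev w1 : V := E 3 + F 3
abbrev v1 : V := E 3 + (E 2 + F 2)

theorem pE (i : Fin 4) (v : V) : polar q (E i) v = v (.inr i) := by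
  simp [polar_plusQ, E, Pi.single_apply]
theorem pF (i : Fin 4) (v : V) : polar q (F i) v = v (.inl i) := by
  simp [polar_plusQ, F, Pi.single_apply]
theorem pE' (i : Fin 4) (v : V) : polar q v (E i) = v (.inr i) := by rw [polar_comm, pE]
theorem pF' (i : Fin 4) (v : V) : polar q v (F i) = v (.inl i) := by rw [polar_comm, pF]
theorem El (i j : Fin 4) : E i (.inl j) = if j = i then 1 else 0 := by simp [E, Pi.single_apply]
theorem Er (i j : Fin 4) : E i (.inr j) = 0 := by simp [E]
theorem Fl (i j : Fin 4) : F i (.inl j) = 0 := by simp [F]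
theorem Fr (i j : Fin 4) : F i (.inr j) = if j = i then 1 else 0 := by simp [F, Pi.single_apply]
theorem o2 : (1 + 1 : ZMod 2) = 0 := rfl
theorem qE (i : Fin 4) : q (E i) = 0 := by simp [plusQ_apply, Er]
theorem qF (i : Fin 4) : q (F i) = 0 := by simp [plusQ_apply, Fl]

theorem qee : q ee = 0 := qE 0
theorem qw1 : q w1 = 1 := by simp [q_add, polar_add_left, polar_add_right, pE, pF, El, Er, Fl, Fr, qE, qF, o2]
theorem qv1 : q v1 = 1 := by simp [q_add, polar_add_left, polar_add_right, pE, pF, El, Er, Fl, Fr, qE, qF, o2]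
theorem ee0 : ee ≠ 0 := fun e => by simpa [El] using congrFun e (.inl 0)

theorem vext {u v : V} (h1 : ∀ i, u (.inl i) = v (.inl i)) (h2 : ∀ i, u (.inr i) = v (.inr i)) :
    u = v := funext fun i => i.casesOn h1 h2

theorem nsp {w : V} (h : w = E 1 ∨ w = w1) : w ∉ Submodule.span (ZMod 2) {ee} := fun e => by
  obtain ⟨c, hc⟩ := Submodule.mem_span_singleton.1 e
  rcases h with rfl | rfl
  · simpa [El] using congrFun hc (.inl 1)
  · simpa [El, Fl] using congrFun hc (.inl 3)

theorem rk_cases {σ : OG q} (h : σ ∈ Om) (h1 : σ * σ = 1) (h2 : σ ≠ 1) : rk σ = 2 ∨ rk σ = 4 := by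
  obtain ⟨k, hk⟩ := (dk σ).1 h
  have h3 := nd.two_mul_rk_le two0 h1
  rw [dim] at h3
  have : rk σ ≠ 0 := fun e => h2 (OG.ext fun x => by
    have := sub_mem_mov σ x
    rw [Submodule.finrank_eq_zero.1 e, Submodule.mem_bot, sub_eq_zero] at this
    exact this)
  omega

theorem sing_eich {e w : V} (h0 : e ≠ 0) (he : q e = 0) (hw : polar q e w = 0) :
    Sing q (mov (eich q e w)) ↔ q w = 0 := by
  have key : ∀ v, polar q v ((eich q e w).1 v) = q w * polar q e v * polar q e v := fun v => by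
    rw [eich_ap he hw, polar_add_right, polar_add_right, pvv, p_smul_right, p_smul_right,
      polar_comm q v e, polar_comm q v w]
    generalize q w = a, polar q e v = b, polar q w v = c
    revert a b c; decide
  rw [sing_mov_iff two0]
  simp only [key]
  refine ⟨fun h => ?_, fun h v => by simp [h]⟩
  obtain ⟨y, hy⟩ := nd.exists_polar_one h0
  simpa [hy] using h y

theorem eich_sq {e w : V} (he : q e = 0) (hw : polar q e w = 0) : eich q e w * eich q e w = 1 := by
  rw [eich_mul he hw hw, vv, eich_zero_right]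

theorem eich_ne {w : V} (h : w ∉ Submodule.span (ZMod 2) {ee}) (hw : polar q ee w = 0) :
    eich q ee w ≠ 1 := fun e => h ((Classical.AutO.eich_eq_one_iff nd ee0 qee hw).1 e)

theorem rk_eich {w : V} (h : w = E 1 ∨ w = w1) (hw : polar q ee w = 0) : rk (eich q ee w) = 2 := by
  have h1 : mov (eich q ee w) ≤ Submodule.span (ZMod 2) {ee, w} := fun x hx => by
    obtain ⟨y, rfl⟩ := mem_mov.1 hx
    rw [eich_ap qee hw, add_assoc, add_sub_cancel_left]
    exact Submodule.mem_span_pair.2 ⟨_, _, rfl⟩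
  have := (Submodule.finrank_mono h1).trans (finrank_span_pair_le _ _)
  have := rk_cases (eich_Om _ _) (eich_sq qee hw) (eich_ne (nsp h) hw)
  unfold rk at *
  omega

/-- representatives of rank four -/
noncomputable def rho (a : V) : OG q := eich q (E 1) (E 2) * eich q ee a

def Al (a : V) : Prop := a = E 3 ∨ a = F 3 ∨ a = w1

theorem Al.perp {a : V} (h : Al a) : polar q ee a = 0 ∧ polar q (E 1) a = 0 ∧ polar q (E 2) a = 0 := by
  rcases h with rfl | rfl | rfl <;> simp [q_add, polar_add_left, polar_add_right, pE, pF, El, Er, Fl, Fr, qE, qF, o2]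

theorem s0_ap (x : V) : (eich q (E 1) (E 2)).1 x = x + x (.inr 2) • E 1 + x (.inr 1) • E 2 := by
  rw [eich_ap (qE 1) (by simp [q_add, polar_add_left, polar_add_right, pE, pF, El, Er, Fl, Fr, qE, qF, o2]), qE, zero_mul, sub_zero, pE, pE]

theorem rho_ap {a : V} (h : Al a) (x : V) : (rho a).1 x = x + (polar q a x - q a * x (.inr 0)) • ee +
    x (.inr 0) • a + x (.inr 2) • E 1 + x (.inr 1) • E 2 := by
  obtain ⟨h1, h2, h3⟩ := h.perp
  rw [rho, OG.mul_apply, s0_ap, eich_ap qee h1, pE]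
  rw [pE] at h2 h3
  simp [Er, h2, h3]

theorem Al.star {a : V} (h : Al a) : ∃ b, (rho a).1 b = b + ee := by
  rcases h with rfl | rfl | rfl
  · exact ⟨F 3, by rw [rho_ap (.inl rfl)]; simp [q_add, polar_add_left, polar_add_right, pE, pF, El, Er, Fl, Fr, qE, qF, o2]⟩
  · exact ⟨E 3, by rw [rho_ap (.inr (.inl rfl))]; simp [q_add, polar_add_left, polar_add_right, pE, pF, El, Er, Fl, Fr, qE, qF, o2]⟩
  · exact ⟨E 3, by rw [rho_ap (.inr (.inr rfl))]; simp [q_add, polar_add_left, polar_add_right, pE, pF, El, Er, Fl, Fr, qE, qF, o2]⟩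

theorem rho_sq {a : V} (h : Al a) : rho a * rho a = 1 := by
  obtain ⟨h1, h2, h3⟩ := h.perp
  have := eich_conj (eich q (E 1) (E 2)) ee a
  rw [eich_apply_of_orth (qE 1) (by simp [q_add, polar_add_left, polar_add_right, pE, pF, El, Er, Fl, Fr, qE, qF, o2]) (by simp [q_add, polar_add_left, polar_add_right, pE, pF, El, Er, Fl, Fr, qE, qF, o2]) (by simp [q_add, polar_add_left, polar_add_right, pE, pF, El, Er, Fl, Fr, qE, qF, o2]), eich_apply_of_orth (qE 1) (by simp [q_add, polar_add_left, polar_add_right, pE, pF, El, Er, Fl, Fr, qE, qF, o2]) h2 h3,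
    mul_inv_eq_iff_eq_mul] at this
  rw [rho]
  nth_rw 1 [this]
  rw [mul_assoc, ← mul_assoc (eich q (E 1) (E 2)), eich_sq (qE 1) (by simp [q_add, polar_add_left, polar_add_right, pE, pF, El, Er, Fl, Fr, qE, qF, o2]), one_mul, eich_sq qee h1]

theorem liE : LinearIndependent (ZMod 2) fun i : Fin 3 => E i.castSucc := by
  have := (Pi.basisFun (ZMod 2) (Fin 4 ⊕ Fin 4)).linearIndependent.comp
    (fun i : Fin 3 => Sum.inl i.castSucc) (Sum.inl_injective.comp (Fin.castSucc_injective _))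
  convert this using 2
  simp [E]

theorem rho_Om (a : V) : rho a ∈ Om := mul_mem (eich_Om _ _) (eich_Om _ _)

theorem rk_rho {a : V} (h : Al a) : rk (rho a) = 4 := by
  have h1 : Submodule.span (ZMod 2) (Set.range fun i : Fin 3 => E i.castSucc) ≤ mov (rho a) := by
    rw [Submodule.span_le]
    rintro _ ⟨i, rfl⟩
    fin_cases i
    · obtain ⟨b, hb⟩ := h.star
      exact mem_mov.2 ⟨b, by rw [hb, add_sub_cancel_left]; rfl⟩
    · refine mem_mov.2 ⟨F 2, ?_⟩
      rw [rho_ap h]; rcases h with rfl | rfl | rfl <;> simp [q_add, polar_add_left, polar_add_right, pE, pF, El, Er, Fl, Fr, qE, qF, o2]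
    · refine mem_mov.2 ⟨F 1, ?_⟩
      rw [rho_ap h]; rcases h with rfl | rfl | rfl <;> simp [q_add, polar_add_left, polar_add_right, pE, pF, El, Er, Fl, Fr, qE, qF, o2]
  have h2 := Submodule.finrank_mono h1
  rw [finrank_span_eq_card liE, Fintype.card_fin] at h2
  have := rk_cases (rho_Om a) (rho_sq h) (fun e => by rw [e, mov_one, finrank_bot] at h2; omega)
  unfold rk at *
  omega

theorem sing_rho {a : V} (h : Al a) : Sing q (mov (rho a)) ↔ q a = 0 := by
  have key : ∀ v, polar q v ((rho a).1 v) = q a * v (.inr 0) * v (.inr 0) := fun v => by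
    rw [rho_ap h]
    simp only [polar_add_right, pvv, p_smul_right, pE', polar_comm q v a]
    generalize q a = a, polar q a v = b, v (.inr 0) = c, v (.inr 1) = d, v (.inr 2) = e
    revert a b c d e; decide
  rw [sing_mov_iff two0]
  simp only [key]
  exact ⟨fun h => by simpa [Fr] using h (F 0), fun h v => by simp [h]⟩

theorem om_cls2 {σ : OG q} (h1 : σ * σ = 1) (h2 : rk σ = 2) :
    ∃ τ ∈ Om, ∃ w, (w = E 1 ∨ w = w1) ∧ τ * σ * τ⁻¹ = eich q ee w := by
  have key : ∀ w, (w = E 1 ∨ w = w1) → polar q ee w = 0 → (Sing q (mov σ) ↔ q w = 0) →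
      ∃ τ ∈ Om, ∃ w, (w = E 1 ∨ w = w1) ∧ τ * σ * τ⁻¹ = eich q ee w := fun w hw hw' e => by
    obtain ⟨τ, h3, h4⟩ := nd.omega_conj_of_not two0 dk h1 (s := eich q ee w)
      (by rw [h2, dim]; simp) ((nd.isConj_iff_char_two two0 h1 (eich_sq qee hw')).2
        ⟨by rw [h2, rk_eich hw hw'], e.trans (sing_eich ee0 qee hw').symm⟩)
    exact ⟨τ, h3, w, hw, h4⟩
  by_cases hs : Sing q (mov σ)
  · exact key _ (.inl rfl) (by simp [q_add, polar_add_left, polar_add_right, pE, pF, El, Er, Fl, Fr, qE, qF, o2]) (iff_of_true hs (qE 1))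
  · exact key w1 (.inr rfl) (by simp [q_add, polar_add_left, polar_add_right, pE, pF, El, Er, Fl, Fr, qE, qF, o2]) (iff_of_false hs (by rw [qw1]; decide))

theorem om_cls4 {σ : OG q} (h1 : σ * σ = 1) (h2 : rk σ = 4) :
    ∃ τ ∈ Om, ∃ a, Al a ∧ τ * σ * τ⁻¹ = rho a := by
  by_cases hs : Sing q (mov σ)
  · obtain ⟨c, hc⟩ := isConj_iff.1 ((nd.isConj_iff_char_two two0 h1 (rho_sq (.inl rfl))).2
      ⟨by rw [h2, rk_rho (.inl rfl)], iff_of_true hs ((sing_rho (.inl rfl)).2 (qE 3))⟩)
    by_cases he : Even (rk c)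
    · exact ⟨c, (dk c).2 he, _, .inl rfl, hc⟩
    · refine ⟨refl q w1 * c, (dk _).2 ?_, F 3, .inr (.inl rfl), ?_⟩
      · rw [nd.even_rk_mul']
        exact iff_of_false (nd.odd_rk_refl (by rw [qw1]; decide)) he
      · have e : (refl q w1).1 (E 3) = F 3 := by
          rw [refl_apply, qw1, subv]; simp [q_add, polar_add_left, polar_add_right, pE, pF, El, Er, Fl, Fr, qE, qF, o2]; rw [← add_assoc, vv, zero_add]
        rw [show refl q w1 * c * σ * (refl q w1 * c)⁻¹ = refl q w1 * (c * σ * c⁻¹) * (refl q w1)⁻¹ by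
          group, hc, rho, rho, ← conj_mul, eich_conj, eich_conj, e, refl_apply_of_orth (by simp [q_add, polar_add_left, polar_add_right, pE, pF, El, Er, Fl, Fr, qE, qF, o2]),
          refl_apply_of_orth (by simp [q_add, polar_add_left, polar_add_right, pE, pF, El, Er, Fl, Fr, qE, qF, o2]), refl_apply_of_orth (by simp [q_add, polar_add_left, polar_add_right, pE, pF, El, Er, Fl, Fr, qE, qF, o2])]
  · obtain ⟨τ, h3, h4⟩ := nd.omega_conj_of_not two0 dk h1 (s := rho w1) (fun e => hs e.2)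
      ((nd.isConj_iff_char_two two0 h1 (rho_sq (.inr (.inr rfl)))).2
        ⟨by rw [h2, rk_rho (.inr (.inr rfl))], iff_of_false hs (by
          rw [sing_rho (.inr (.inr rfl)), qw1]; decide)⟩)
    exact ⟨τ, h3, _, .inr (.inr rfl), h4⟩

theorem rk_le_two {σ : OG q} (h : σ ∈ Om) (h1 : σ * σ = 1) {e f : V} (he : σ.1 e = e)
    (hf : σ.1 f = f) (hef : polar q e f = 1) : σ = 1 ∨ rk σ = 2 := by
  by_cases h2 : σ = 1
  · exact .inl h2
  refine .inr ((rk_cases h h1 h2).resolve_right fun h3 => ?_)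
  have h4 := rk_add_finrank_fix σ
  have h5 : mov σ = fix σ := Submodule.eq_of_le_of_finrank_eq
    (nd.perp_mov σ ▸ mov_le_perp two0 h1) (by rw [dim] at h4; unfold rk at *; omega)
  have := mov_le_perp_fix σ (h5 ▸ mem_fix.2 hf) e (mem_fix.2 he)
  exact absurd (hef.symm.trans this) (by decide)

end Cfsg.Agent.CoI
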