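import Cfsg.Agent.CoI.D

/-! Frames for the two non-central classes. -/

set_option autoImplicit false
set_option linter.unusedSectionVars false
set_option linter.unusedSimpArgs false

namespace Cfsg.Agent.CoI

open Cfsg Subgroup LocalEven Fischer PLocal Orth QuadraticMap Module

def Fx (σ : OG q) (x : V) : Prop := ∃ c : ZMod 2, σ.1 x = x + c • ee

theorem Fx.add {σ : OG q} {x y : V} (a : Fx σ x) (b : Fx σ y) : Fx σ (x + y) := by
  obtain ⟨c, a⟩ := a
  obtain ⟨d, b⟩ := b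
  exact ⟨c + d, by rw [map_add, a, b]; module⟩

theorem Fx.smul {σ : OG q} {x : V} (a : Fx σ x) (k : ZMod 2) : Fx σ (k • x) := by
  obtain ⟨c, a⟩ := a
  exact ⟨k * c, by rw [map_smul, a]; module⟩

theorem Fx.of {σ : OG q} {x : V} (a : σ.1 x = x) : Fx σ x := ⟨0, by simp [a]⟩

theorem triv0 {σ : OG q} (h0 : σ.1 ee = ee) (h : ∀ x, polar q ee x = 0 → Fx σ x) :
    ∃ w, polar q ee w = 0 ∧ σ = eich q ee w := by
  obtain ⟨w, e3, -, e4⟩ := Classical.AutO.eq_eich_of nd qee (qF 0) (by simp [q_add, polar_add_left, polar_add_right, pE, pF, El, Er, Fl, Fr, qE, qF, o2, two0]) h0 fun x hx => by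
    obtain ⟨c, hc⟩ := h x hx
    exact Submodule.mem_span_singleton.2 ⟨c, by rw [hc, add_sub_cancel_left]⟩
  exact ⟨w, e3, e4⟩

structure FR (v w c1 c2 : V) (g : Fin 4 → V) : Prop where
  ev : polar q ee v = 0
  ew : polar q ee w = 0
  e1 : polar q ee c1 = 0
  e2 : polar q ee c2 = 0
  g0 : ∀ i, polar q ee (g i) = 0 ∧ polar q v (g i) = 0 ∧ polar q w (g i) = 0
  a1 : polar q c1 v = 1
  a2 : polar q c1 w = 0
  a3 : polar q c2 v = 0
  a4 : polar q c2 w = 1
  qv : q v = q w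
  vw : polar q w v = q w
  g23 : polar q (g 2) (g 3) = 1
  span : ∀ x, polar q ee x = 0 → (∀ i, polar q (g i) x = 0) →
    x = x (.inl 0) • ee + polar q c1 x • v + polar q c2 x • w
  gen : ∀ x, polar q ee x = 0 → ∃ c d1 d2 k0 k1 k2 k3 : ZMod 2,
    x = c • ee + d1 • c1 + d2 • c2 + k0 • g 0 + k1 • g 1 + k2 • g 2 + k3 • g 3
  tr : ∀ x, polar q ee x = 0 → q x = q w → polar q w x = q w → x ∉ Submodule.span (ZMod 2) {ee} →
    x + w ∉ Submodule.span (ZMod 2) {ee} → ∃ τ ∈ Om, τ.1 ee = ee ∧ τ.1 w = w ∧ τ.1 v = x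
  ab : ∀ σ ∈ Om, ∀ τ ∈ Om, σ.1 ee = ee → τ.1 ee = ee → (∀ i, σ.1 (g i) = g i) →
    (∀ i, τ.1 (g i) = g i) → Fx σ w → Fx τ w → σ * τ = τ * σ

theorem nsp_of {c x : V} (h1 : polar q ee c = 0) (h2 : polar q c x = 1) :
    x ∉ Submodule.span (ZMod 2) {ee} := fun e => by
  obtain ⟨d, rfl⟩ := Submodule.mem_span_singleton.1 e
  rw [p_smul_right, polar_comm, h1, mul_zero] at h2
  exact absurd h2 (by decide)

theorem triv1 {c1 c2 : V} {g : Fin 4 → V} (gen : ∀ x, polar q ee x = 0 →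
    ∃ c d1 d2 k0 k1 k2 k3 : ZMod 2,
      x = c • ee + d1 • c1 + d2 • c2 + k0 • g 0 + k1 • g 1 + k2 • g 2 + k3 • g 3)
    {σ : OG q} (h0 : σ.1 ee = ee) (h : ∀ i, Fx σ (g i)) (h1 : Fx σ c1) (h2 : Fx σ c2) :
    ∃ w, polar q ee w = 0 ∧ σ = eich q ee w := triv0 h0 fun x hx => by
  obtain ⟨c, d1, d2, k0, k1, k2, k3, rfl⟩ := gen x hx
  exact (((((((Fx.of h0).smul _).add (h1.smul _)).add (h2.smul _)).add ((h 0).smul _)).add
    ((h 1).smul _)).add ((h 2).smul _)).add ((h 3).smul _)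

theorem li3 {w v : V} (h0 : w ∉ Submodule.span (ZMod 2) {ee}) (h1 : v ∉ Submodule.span (ZMod 2) {ee})
    (h2 : v + w ∉ Submodule.span (ZMod 2) {ee}) : LinearIndependent (ZMod 2) ![ee, w, v] := by
  rw [Fintype.linearIndependent_iff]
  intro c hc
  simp only [Fin.sum_univ_three, Matrix.cons_val_zero, Matrix.cons_val_one, Matrix.cons_val] at hc
  rw [add_assoc, add_eq_zero_iff_eq_neg, negv] at hc
  have m : c 1 • w + c 2 • v ∈ Submodule.span (ZMod 2) {ee} := Submodule.mem_span_singleton.2 ⟨_, hc⟩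
  rcases z01 (c 1) with a | a <;> rcases z01 (c 2) with b | b <;>
    simp only [a, b, zero_smul, one_smul, add_zero, zero_add] at m hc
  · have := (smul_eq_zero.1 hc).resolve_right ee0
    intro i
    fin_cases i <;> assumption
  · exact absurd m h1
  · exact absurd m h0
  · exact absurd (add_comm w v ▸ m) h2

theorem tr0 {v w u : V} (ev : polar q ee v = 0) (qv : q v = q w) (vw : polar q w v = q w)
    (l : LinearIndependent (ZMod 2) ![ee, w, v]) (h0 : w ∉ Submodule.span (ZMod 2) {ee})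
    (hu : q u = 1) (u1 : polar q u ee = 0) (u2 : polar q u w = 0) (u3 : polar q u v = 0) (x : V)
    (h1 : polar q ee x = 0) (h2 : q x = q w) (h3 : polar q w x = q w)
    (h4 : x ∉ Submodule.span (ZMod 2) {ee}) (h5 : x + w ∉ Submodule.span (ZMod 2) {ee}) :
    ∃ τ ∈ Om, τ.1 ee = ee ∧ τ.1 w = w ∧ τ.1 v = x := by
  obtain ⟨σ, e⟩ := witt_family nd _ _ l (li3 h0 h4 h5)
    (fun i => by fin_cases i <;> simp [h2, qv]) fun i j => by
      fin_cases i <;> fin_cases j <;>
        simp [h1, h2, h3, ev, qv, vw, polar_comm q x ee, polar_comm q x w, polar_comm q v ee,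
          polar_comm q v w]
  obtain ⟨τ, h4, h5⟩ := om_fix σ (v := u) (by rw [hu]; decide)
  exact ⟨τ, h4, (h5 _ u1).trans (e 0), (h5 _ u2).trans (e 1), (h5 _ u3).trans (e 2)⟩

theorem mvp {σ : OG q} {m : V} (h : σ.1 m = m) (x : V) : polar q m (σ.1 x - x) = 0 := by
  rw [polar_sub_right, ← OG.map_polar σ m x, h, sub_self]

theorem fixE {σ : OG q} (h : ∀ i, σ.1 (E i) = E i) {x : V} (hx : ∀ i, x (.inr i) = 0) :
    σ.1 x = x := by
  have : x = ∑ i, x (.inl i) • E i := vext (fun i => by simp [Finset.sum_apply, El])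
    fun i => by simp [Finset.sum_apply, Er, hx]
  rw [this, map_sum]
  simp only [map_smul, h]

theorem fr1 : FR (E 2) (E 1) (F 2) (F 1) ![E 1, E 2, E 3, F 3] where
  ev := by simp [q_add, polar_add_left, polar_add_right, pE, pF, El, Er, Fl, Fr, qE, qF, o2, two0]
  ew := by simp [q_add, polar_add_left, polar_add_right, pE, pF, El, Er, Fl, Fr, qE, qF, o2, two0]
  e1 := by simp [q_add, polar_add_left, polar_add_right, pE, pF, El, Er, Fl, Fr, qE, qF, o2, two0]
  e2 := by simp [q_add, polar_add_left, polar_add_right, pE, pF, El, Er, Fl, Fr, qE, qF, o2, two0]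
  g0 i := by fin_cases i <;> simp [q_add, polar_add_left, polar_add_right, pE, pF, El, Er, Fl, Fr, qE, qF, o2, two0]
  a1 := by simp [q_add, polar_add_left, polar_add_right, pE, pF, El, Er, Fl, Fr, qE, qF, o2, two0]
  a2 := by simp [q_add, polar_add_left, polar_add_right, pE, pF, El, Er, Fl, Fr, qE, qF, o2, two0]
  a3 := by simp [q_add, polar_add_left, polar_add_right, pE, pF, El, Er, Fl, Fr, qE, qF, o2, two0]
  a4 := by simp [q_add, polar_add_left, polar_add_right, pE, pF, El, Er, Fl, Fr, qE, qF, o2, two0]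
  qv := by simp [q_add, polar_add_left, polar_add_right, pE, pF, El, Er, Fl, Fr, qE, qF, o2, two0]
  vw := by simp [q_add, polar_add_left, polar_add_right, pE, pF, El, Er, Fl, Fr, qE, qF, o2, two0]
  g23 := by simp [q_add, polar_add_left, polar_add_right, pE, pF, El, Er, Fl, Fr, qE, qF, o2, two0]
  span x h0 h := by
    have h1 := h 0; have h2 := h 1; have h3 := h 2; have h4 := h 3
    simp [pE, pF] at h0 h1 h2 h3 h4
    refine vext (fun i => ?_) fun i => ?_ <;> fin_cases i <;> simp [pE, pF, El, Er, *]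
  gen x h := by
    rw [pE] at h
    refine ⟨x (.inl 0), x (.inr 2), x (.inr 1), x (.inl 1), x (.inl 2), x (.inl 3), x (.inr 3),
      vext (fun i => ?_) fun i => ?_⟩ <;> fin_cases i <;> simp [El, Er, Fl, Fr, h]
  tr := tr0 (u := w1) (by simp [q_add, polar_add_left, polar_add_right, pE, pF, El, Er, Fl, Fr, qE, qF, o2, two0]) (by simp [q_add, polar_add_left, polar_add_right, pE, pF, El, Er, Fl, Fr, qE, qF, o2, two0]) (by simp [q_add, polar_add_left, polar_add_right, pE, pF, El, Er, Fl, Fr, qE, qF, o2, two0]) (li3 (nsp (.inl rfl)) (nsp_of (c := F 2) (by simp [q_add, polar_add_left, polar_add_right, pE, pF, El, Er, Fl, Fr, qE, qF, o2, two0]) (by simp [q_add, polar_add_left, polar_add_right, pE, pF, El, Er, Fl, Fr, qE, qF, o2, two0]))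
    (nsp_of (c := F 2) (by simp [q_add, polar_add_left, polar_add_right, pE, pF, El, Er, Fl, Fr, qE, qF, o2, two0]) (by simp [q_add, polar_add_left, polar_add_right, pE, pF, El, Er, Fl, Fr, qE, qF, o2, two0]))) (nsp (.inl rfl)) qw1 (by simp [q_add, polar_add_left, polar_add_right, pE, pF, El, Er, Fl, Fr, qE, qF, o2, two0]) (by simp [q_add, polar_add_left, polar_add_right, pE, pF, El, Er, Fl, Fr, qE, qF, o2, two0]) (by simp [q_add, polar_add_left, polar_add_right, pE, pF, El, Er, Fl, Fr, qE, qF, o2, two0])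
  ab σ _ τ _ a b c d _ _ := by
    have h1 : ∀ i, σ.1 (E i) = E i := fun i => by fin_cases i; exacts [a, c 0, c 1, c 2]
    have h2 : ∀ i, τ.1 (E i) = E i := fun i => by fin_cases i; exacts [b, d 0, d 1, d 2]
    refine OG.ext fun x => ?_
    have e1 := fixE h1 (x := τ.1 x - x) fun i => (pE _ _).symm.trans (mvp (h2 i) x)
    have e2 := fixE h2 (x := σ.1 x - x) fun i => (pE _ _).symm.trans (mvp (h1 i) x)
    rw [map_sub] at e1 e2
    rw [OG.mul_apply, OG.mul_apply]
    linear_combination (norm := abel) e1 - e2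

theorem span2 (x : V) (h0 : polar q ee x = 0)
    (h : ∀ i, polar q (![E 1, F 1, E 2 + F 2, E 2 + w1] i) x = 0) :
    x = x (.inl 0) • ee + polar q w1 x • v1 + polar q v1 x • w1 := by
  have h1 := h 0; have h2 := h 1; have h3 := h 2; have h4 := h 3
  simp [pE, pF, polar_add_left] at h0 h1 h2 h3 h4
  refine vext (fun i => ?_) fun i => ?_ <;> fin_cases i <;>
    simp [pE, pF, El, Er, Fl, Fr, polar_add_left, h0, h1, h2] <;> revert h3 h4 <;>
    generalize x (.inl 2) = a, x (.inl 3) = b, x (.inr 2) = c, x (.inr 3) = d <;>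
    revert a b c d <;> decide

theorem gen2 (x : V) (h : polar q ee x = 0) : ∃ c d1 d2 k0 k1 k2 k3 : ZMod 2,
    x = c • ee + d1 • w1 + d2 • v1 + k0 • ![E 1, F 1, E 2 + F 2, E 2 + w1] 0 +
      k1 • ![E 1, F 1, E 2 + F 2, E 2 + w1] 1 + k2 • ![E 1, F 1, E 2 + F 2, E 2 + w1] 2 +
      k3 • ![E 1, F 1, E 2 + F 2, E 2 + w1] 3 := by
  rw [pE] at h
  refine ⟨x (.inl 0), x (.inr 3) + x (.inr 2) + x (.inl 2), x (.inr 3) + x (.inl 3), x (.inl 1),
    x (.inr 1), x (.inr 2) + x (.inr 3) + x (.inl 3), x (.inr 2) + x (.inl 2),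
    vext (fun i => ?_) fun i => ?_⟩ <;> fin_cases i <;> simp [El, Er, Fl, Fr, h] <;>
    generalize x (.inl 2) = a, x (.inl 3) = b, x (.inr 2) = c, x (.inr 3) = d <;>
    revert a b c d <;> decide

theorem orth_key {σ : OG q} (h : σ ∈ Om) (h0 : σ.1 ee = ee)
    (h1 : ∀ i, σ.1 (![E 1, F 1, E 2 + F 2, E 2 + w1] i) = ![E 1, F 1, E 2 + F 2, E 2 + w1] i)
    (h3 : Fx σ w1) : ∃ w, polar q ee w = 0 ∧ σ = eich q ee w := by
  obtain ⟨c, h3⟩ := h3
  have k0 : polar q ee (σ.1 v1) = 0 := by rw [← h0, OG.map_polar]; simp [q_add, polar_add_left, polar_add_right, pE, pF, El, Er, Fl, Fr, qE, qF, o2, two0]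
  have e := span2 _ k0 fun i => by rw [← h1, OG.map_polar]; fin_cases i <;> simp [q_add, polar_add_left, polar_add_right, pE, pF, El, Er, Fl, Fr, qE, qF, o2, two0]
  have k1 := OG.map_polar σ w1 v1
  rw [h3, polar_add_left, p_smul_left, k0, mul_zero, add_zero, show polar q w1 v1 = 1 by simp [q_add, polar_add_left, polar_add_right, pE, pF, El, Er, Fl, Fr, qE, qF, o2, two0]] at k1
  rw [k1, one_smul] at e
  generalize σ.1 v1 (.inl 0) = d0 at e
  rcases z01 (polar q v1 (σ.1 v1)) with d | d <;> rw [d] at e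
  · exact triv1 gen2 h0 (fun i => .of (h1 i)) ⟨c, h3⟩ ⟨d0, by rw [e, zero_smul, add_zero, add_comm]⟩
  · exfalso
    obtain ⟨w, -, e'⟩ := triv1 gen2 (σ := refl q w1 * σ)
      (by rw [OG.mul_apply, h0, refl_apply_of_orth (by simp [q_add, polar_add_left, polar_add_right, pE, pF, El, Er, Fl, Fr, qE, qF, o2, two0])])
      (fun i => .of (by rw [OG.mul_apply, h1, refl_apply_of_orth (by fin_cases i <;> simp [q_add, polar_add_left, polar_add_right, pE, pF, El, Er, Fl, Fr, qE, qF, o2, two0])]))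
      ⟨c, by rw [OG.mul_apply, h3, refl_apply_of_orth (by rw [polar_add_right, p_smul_right]; simp [q_add, polar_add_left, polar_add_right, pE, pF, El, Er, Fl, Fr, qE, qF, o2, two0])]⟩
      ⟨d0, by
        rw [OG.mul_apply, e, refl_apply, qw1, polar_add_right, polar_add_right, p_smul_right,
          p_smul_right, pvv, show polar q w1 v1 = 1 by simp [q_add, polar_add_left, polar_add_right, pE, pF, El, Er, Fl, Fr, qE, qF, o2, two0], show polar q w1 ee = 0 by simp [q_add, polar_add_left, polar_add_right, pE, pF, El, Er, Fl, Fr, qE, qF, o2, two0]]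
        simp only [mul_zero, zero_add, inv_one, mul_one, one_smul, add_zero]
        abel⟩
    have := mul_mem (e' ▸ eich_Om ee w : refl q w1 * σ ∈ Om) (inv_mem h)
    rw [mul_inv_cancel_right] at this
    exact nd.odd_rk_refl (by rw [qw1]; decide) ((dk _).1 this)

theorem fr2 : FR v1 w1 w1 v1 ![E 1, F 1, E 2 + F 2, E 2 + w1] where
  ev := by simp [q_add, polar_add_left, polar_add_right, pE, pF, El, Er, Fl, Fr, qE, qF, o2, two0]
  ew := by simp [q_add, polar_add_left, polar_add_right, pE, pF, El, Er, Fl, Fr, qE, qF, o2, two0]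
  e1 := by simp [q_add, polar_add_left, polar_add_right, pE, pF, El, Er, Fl, Fr, qE, qF, o2, two0]
  e2 := by simp [q_add, polar_add_left, polar_add_right, pE, pF, El, Er, Fl, Fr, qE, qF, o2, two0]
  g0 i := by fin_cases i <;> simp [q_add, polar_add_left, polar_add_right, pE, pF, El, Er, Fl, Fr, qE, qF, o2, two0]
  a1 := by simp [q_add, polar_add_left, polar_add_right, pE, pF, El, Er, Fl, Fr, qE, qF, o2, two0]
  a2 := by simp [q_add, polar_add_left, polar_add_right, pE, pF, El, Er, Fl, Fr, qE, qF, o2, two0]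
  a3 := by simp [q_add, polar_add_left, polar_add_right, pE, pF, El, Er, Fl, Fr, qE, qF, o2, two0]
  a4 := by simp [q_add, polar_add_left, polar_add_right, pE, pF, El, Er, Fl, Fr, qE, qF, o2, two0]
  qv := by simp [q_add, polar_add_left, polar_add_right, pE, pF, El, Er, Fl, Fr, qE, qF, o2, two0]
  vw := by simp [q_add, polar_add_left, polar_add_right, pE, pF, El, Er, Fl, Fr, qE, qF, o2, two0]
  g23 := by simp [q_add, polar_add_left, polar_add_right, pE, pF, El, Er, Fl, Fr, qE, qF, o2, two0]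
  span := span2
  gen := gen2
  tr := tr0 (u := E 1 + F 1) (by simp [q_add, polar_add_left, polar_add_right, pE, pF, El, Er, Fl, Fr, qE, qF, o2, two0]) (by simp [q_add, polar_add_left, polar_add_right, pE, pF, El, Er, Fl, Fr, qE, qF, o2, two0]) (by simp [q_add, polar_add_left, polar_add_right, pE, pF, El, Er, Fl, Fr, qE, qF, o2, two0]) (li3 (nsp (.inr rfl))
    (nsp_of (c := F 2) (by simp [q_add, polar_add_left, polar_add_right, pE, pF, El, Er, Fl, Fr, qE, qF, o2, two0]) (by simp [q_add, polar_add_left, polar_add_right, pE, pF, El, Er, Fl, Fr, qE, qF, o2, two0])) (nsp_of (c := F 2) (by simp [q_add, polar_add_left, polar_add_right, pE, pF, El, Er, Fl, Fr, qE, qF, o2, two0]) (by simp [q_add, polar_add_left, polar_add_right, pE, pF, El, Er, Fl, Fr, qE, qF, o2, two0]))) (nsp (.inr rfl))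
    (by simp [q_add, polar_add_left, polar_add_right, pE, pF, El, Er, Fl, Fr, qE, qF, o2, two0]) (by simp [q_add, polar_add_left, polar_add_right, pE, pF, El, Er, Fl, Fr, qE, qF, o2, two0]) (by simp [q_add, polar_add_left, polar_add_right, pE, pF, El, Er, Fl, Fr, qE, qF, o2, two0]) (by simp [q_add, polar_add_left, polar_add_right, pE, pF, El, Er, Fl, Fr, qE, qF, o2, two0])
  ab σ h1 τ h2 a b c d e f := by
    obtain ⟨x, hx, rfl⟩ := orth_key h1 a c e
    obtain ⟨y, hy, rfl⟩ := orth_key h2 b d f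
    exact eich_comm qee hx hy

theorem memE {x : V} (hx : ∀ i, x (.inr i) = 0) : x = ∑ i, x (.inl i) • E i :=
  vext (fun i => by simp [Finset.sum_apply, El]) fun i => by simp [Finset.sum_apply, Er, hx]

theorem flag0 {σ : OG q} (h : σ ∈ Om) (h0 : σ.1 (E 0) = E 0) (h1 : σ.1 (E 1) = E 1)
    (h2 : σ.1 (E 2) = E 2) : σ.1 (E 3) (.inl 3) = 1 ∧ σ.1 (E 3) (.inr 3) = 0 ∧
      σ.1 (F 3) (.inl 3) = 0 ∧ σ.1 (F 3) (.inr 3) = 1 := by
  have k : ∀ {i} (x), σ.1 (E i) = E i → σ.1 x (.inr i) = x (.inr i) := fun {i} x e => by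
    rw [← pE i (σ.1 x), ← e, OG.map_polar, pE]
  have a := OG.map_Q σ (E 3)
  have b := OG.map_Q σ (F 3)
  have c := OG.map_polar σ (E 3) (F 3)
  rw [qE, plusQ_apply, Fin.sum_univ_four] at a
  rw [qF, plusQ_apply, Fin.sum_univ_four] at b
  rw [pE, polar_plusQ, Fin.sum_univ_four] at c
  simp only [k _ h0, k _ h1, k _ h2] at a b c
  simp [Er, Fr] at c
  simp only [Er, Fr] at a b
  simp only [mul_zero, zero_add, show ((0 : Fin 4) = 3) = False by decide,
    show ((1 : Fin 4) = 3) = False by decide, show ((2 : Fin 4) = 3) = False by decide,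
    if_false] at a b
  have d : σ.1 (E 3) (.inr 3) = 0 := by
    by_contra hn
    rw [← Ne, ne01] at hn
    have r : ∀ i, (refl q w1 * σ).1 (E i) ∈ Submodule.span (ZMod 2) (Set.range E) := fun i => by
      rw [memE (x := (refl q w1 * σ).1 (E i)) fun j => ?_]
      · exact Submodule.sum_mem _ fun j _ => Submodule.smul_mem _ _ (Submodule.subset_span ⟨j, rfl⟩)
      rw [hn, mul_one] at a
      rw [OG.mul_apply, refl_apply, qw1, polar_add_left, pE, pF]
      fin_cases i <;> fin_cases j <;> simp [h0, h1, h2, k _ h0, k _ h1, k _ h2, hn, a, El, Er, Fr]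
    have := nd.even_rk_of_mem_stab good (m := 4) dim (hypFrame_plusQ 4).sing_left
      (hypFrame_plusQ 4).finrank_span_left (g := refl q w1 * σ) (mem_stab_of_le fun v hv =>
        Submodule.span_induction (fun _ ⟨i, e⟩ => e ▸ r i) (by simp)
          (fun _ _ _ _ a b => by rw [map_add]; exact add_mem a b)
          (fun _ _ _ a => by rw [map_smul]; exact Submodule.smul_mem _ _ a) hv)
    rw [nd.even_rk_mul'] at this
    exact nd.odd_rk_refl (by rw [qw1]; decide) (this.2 ((dk σ).1 h))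
  revert a b c d
  generalize σ.1 (E 3) (.inl 3) = a, σ.1 (E 3) (.inr 3) = b, σ.1 (F 3) (.inl 3) = c,
    σ.1 (F 3) (.inr 3) = d
  revert a b c d; decide

theorem flag {σ : OG q} (h : σ ∈ Om) (h0 : σ.1 (E 0) = E 0) (h1 : σ.1 (E 1) = E 1)
    (h2 : σ.1 (E 2) = E 2) {x : V} (x0 : x (.inr 0) = 0) (x1 : x (.inr 1) = 0) (x2 : x (.inr 2) = 0) :
    σ.1 x (.inl 3) = x (.inl 3) ∧ σ.1 x (.inr 3) = x (.inr 3) := by
  obtain ⟨a, b, c, d⟩ := flag0 h h0 h1 h2
  have e : x = x (.inl 0) • E 0 + x (.inl 1) • E 1 + x (.inl 2) • E 2 + x (.inl 3) • E 3 +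
      x (.inr 3) • F 3 := by
    refine vext (fun i => ?_) fun i => ?_ <;> fin_cases i <;> simp [El, Er, Fl, Fr, x0, x1, x2]
  constructor <;> conv_lhs => rw [e] <;> simp [h0, h1, h2, a, b, c, d, El, Er]

theorem nocomm4 {σ τ : OG q} (h : σ ∈ Om) (h' : τ ∈ Om) (h0 : σ.1 (E 0) = E 0)
    (h1 : σ.1 (E 1) = E 1) (h2 : σ.1 (E 2) = E 2) (k0 : τ.1 (E 0) = E 0) (k1 : τ.1 (E 1) = E 1)
    (k2 : τ.1 (E 2) = E 2) {a : V} (ha : Al a) : σ * τ * σ⁻¹ ≠ τ * rho a := fun e => by
  have m : ∀ {σ : OG q} {i} (x), σ.1 (E i) = E i → (σ.1 x - x) (.inr i) = 0 := fun x e =>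
    (pE _ _).symm.trans (mvp e x)
  obtain ⟨x, hx⟩ : ∃ x, σ.1 x = F 0 := ⟨σ⁻¹.1 (F 0), OG.apply_inv_self _ _⟩
  have f1 := flag h h0 h1 h2 (m x k0) (m x k1) (m x k2)
  have f2 := flag h' k0 k1 k2 (m x h0) (m x h1) (m x h2)
  obtain ⟨a0, a1, a2⟩ := ha.perp
  rw [pE] at a0 a1 a2
  have f3 := flag h' k0 k1 k2 a0 a1 a2
  have f4 : σ.1 (τ.1 x) = τ.1 ((rho a).1 (F 0)) := by
    rw [← OG.mul_apply τ, ← e, OG.mul_apply, OG.mul_apply, ← hx, OG.inv_apply_self]
  rw [map_sub, f4, rho_ap ha, hx] at f1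
  rw [map_sub, hx] at f2
  simp [k0, f3, El, Er, Fr, Fl] at f1 f2
  have g1 : a (.inl 3) = 0 := by linear_combination f1.1 - f2.1 - x (.inl 3) * two0
  have g2 : a (.inr 3) = 0 := by linear_combination f1.2 - f2.2 - x (.inr 3) * two0
  rcases ha with rfl | rfl | rfl <;> simp [El, Er, Fl, Fr] at g1 g2

end Cfsg.Agent.CoI
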