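import Cfsg.Agent.CoI.E

/-! Involutions of rank at most two. -/

set_option autoImplicit false
set_option linter.unusedSectionVars false
set_option linter.unusedSimpArgs false

namespace Cfsg.Agent.CoI

open Cfsg Subgroup LocalEven Fischer PLocal Orth QuadraticMap Module

variable {G : Type*} [Group G] [Finite G] {Q R : Subgroup G} {z s : G} {χ : G → V}

theorem exists_cent (h : LS Q z) {x : G} (hx : x * x = 1) : ∃ g, Commute (g * x * g⁻¹) z := by
  have : Fact (Nat.Prime 2) := ⟨Nat.prime_two⟩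
  obtain ⟨S, hS⟩ := h.toES.isPGroup.exists_le_sylow
  have : Nontrivial S := ⟨⟨⟨z, hS h.mem⟩, 1, fun e => h.ne (congrArg Subtype.val e)⟩⟩
  have := S.isPGroup'.center_nontrivial
  obtain ⟨c, hc⟩ := exists_ne (1 : center S)
  have h1 : ∀ y ∈ S, Commute (c.1 : G) y := fun y hy =>
    (congrArg Subtype.val (mem_center_iff.1 c.2 ⟨y, hy⟩)).symm
  have h2 := (h.cent' fun y hy => h1 y (hS hy)).resolve_left fun e => hc (Subtype.ext (Subtype.ext e))
  have h3 : IsPGroup 2 (zpowers x) := fun y => ⟨1, Subtype.ext (by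
    rcases (mem_zpowers_two hx).1 y.2 with e | e <;> simp [e, pow_two, hx])⟩
  obtain ⟨T, hT⟩ := h3.exists_le_sylow
  obtain ⟨g, rfl⟩ := MulAction.exists_smul_eq G T S
  refine ⟨g, (h2 ▸ h1 _ ?_).symm⟩
  exact smul_mem_pointwise_smul _ (MulAut.conj g) _ (hT (mem_zpowers x))

def pw (u : G) (c : ZMod 2) : G := if c = 0 then 1 else u

@[simp] theorem pw0 (u : G) : pw u 0 = 1 := if_pos rfl
@[simp] theorem pw1 (u : G) : pw u 1 = u := if_neg (by decide)

theorem pw_comm {x u : G} (h : Commute x u) (c : ZMod 2) : Commute x (pw u c) := by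
  rcases z01 c with rfl | rfl <;> simp [h]

theorem pw_add {u : G} (h : u * u = 1) (c d : ZMod 2) : pw u c * pw u d = pw u (c + d) := by
  rcases z01 c with rfl | rfl <;> rcases z01 d with rfl | rfl <;> simp [h, o2]

theorem pw_mul (u v : G) (c : ZMod 2) : pw (u * v) c = pw u c * pw v c := by
  rcases z01 c with rfl | rfl <;> simp

theorem pw_inj (p : Pr Q R z s) {a b c d : ZMod 2} :
    pw z a * pw s b = pw z c * pw s d ↔ a = c ∧ b = d := by
  have n1 := p.l.ne
  have n2 := p.r.ne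
  have n3 : z * s ≠ 1 := fun e => p.ne (by rw [eq_inv_of_mul_eq_one_right e, p.l.toES.zinv])
  have n4 := p.ne
  rcases z01 a with rfl | rfl <;> rcases z01 b with rfl | rfl <;> rcases z01 c with rfl | rfl <;>
    rcases z01 d with rfl | rfl <;> simp [n1, n2, n3, n4, n1.symm, n2.symm, n3.symm, n4.symm]

/-- `x` lies in the extraspecial group of a neighbour of `z` -/
def ZT (Q : Subgroup G) (z x : G) : Prop := ∃ m, m * z * m⁻¹ ∈ Q ∧ x ∈ cj m Q

/-- conjugate under the centralizer of `z` -/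
def HC (z t x : G) : Prop := ∃ k, Commute k z ∧ k * t * k⁻¹ = x

theorem ZT.conj (h : LS Q z) {x n : G} (hn : Commute n z) (a : ZT Q z (n * x * n⁻¹)) : ZT Q z x := by
  obtain ⟨m, h4, h5⟩ := a
  refine ⟨n⁻¹ * m, ?_, by rwa [cj_mul, mem_cj_inv]⟩
  have := h.norm n⁻¹ hn.inv_left _ h4
  rwa [show n⁻¹ * (m * z * m⁻¹) * n⁻¹⁻¹ = n⁻¹ * m * z * (n⁻¹ * m)⁻¹ by group] at this

theorem HC.conj {t x n : G} (hn : Commute n z) (a : HC z t (n * x * n⁻¹)) : HC z t x := by
  obtain ⟨m, h4, h5⟩ := a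
  refine ⟨n⁻¹ * m, hn.inv_left.mul_left h4, ?_⟩
  rw [show n⁻¹ * m * t * (n⁻¹ * m)⁻¹ = n⁻¹ * (m * t * m⁻¹) * n by group, h5]
  group

namespace CO
variable (h : CO Q z χ)
include h

theorem la {a a' : G} (ha : a ∈ Q) (ha' : a' ∈ Q) :
    a' * a = a * a' * pw z (polar q (χ a) (χ a')) := by
  rcases z01 (polar q (χ a) (χ a')) with c | c <;> rw [c]
  · rw [pw0, mul_one, ((h.com ha ha').2 c).eq]
  · have := h.toES.conj_eq ha' ha (by rw [h.com ha' ha, polar_comm, c]; decide)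
    rw [pw1, mul_inv_eq_iff_eq_mul.1 this, mul_assoc, (h.central a' ha').eq, mul_assoc]

theorem sqa {a : G} (ha : a ∈ Q) : a * a = pw z (q (χ a)) := by
  rcases z01 (q (χ a)) with c | c <;> rw [c]
  · exact (h.sq' a ha).2 c
  · exact (h.sq a ha).resolve_left (by rw [h.sq' a ha, c]; decide)

variable (p : Pr Q R z s)
include p

theorem dec {x b : G} {w : V} (hx : x * x = 1) (hb : b ∈ R) (hw : polar q (χ s) w = 0)
    (hw' : w ∉ Submodule.span (ZMod 2) {χ s}) (k : Act Q z χ x (eich q (χ s) w))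
    (k' : Act Q z χ b (eich q (χ s) w)) : ∃ a ∈ Q, x = a * b ∧ polar q (χ s) (χ a) = 0 ∧
      q (χ a) = q w ∧ polar q w (χ a) = q w := by
  have ha := h.diff k k'
  have e : x = x * b⁻¹ * b := by group
  generalize x * b⁻¹ = a at ha e
  subst e
  have h1 : polar q (χ s) (χ a) = 0 := by
    by_contra hn
    have hb2 : InU z s (b * b) := (p.r.sq b hb).elim .inl fun e => .inr (.inr (.inl e))
    obtain ⟨c, e, -⟩ := h.chU p hb2
    have := congrArg χ (show a * (b * a * b⁻¹) * (b * b) = 1 by rw [← hx]; group)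
    rw [h.mul _ (mul_mem ha (h.norm b k'.1 a ha)) _ (hb2.memQ p), h.mul _ ha _ (h.norm b k'.1 a ha),
      k'.2 a ha, eich_ap (h.qe p) hw, ne01.1 hn, e, h.one, one_smul, ← add_assoc, ← add_assoc, vv,
      zero_add, add_right_comm, ← add_smul] at this
    exact hw' (Submodule.mem_span_singleton.2 ⟨_, (eq_neg_of_add_eq_zero_left this).trans (negv w)⟩)
  refine ⟨a, ha, rfl, h1, ?_⟩
  have h2 := h.sq' a ha
  have h3 := h.sq_B p hb hw k'
  have n1 := h.ne
  have n2 := p.r.ne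
  have n3 : z * s ≠ 1 := fun e => p.ne (by rw [eq_inv_of_mul_eq_one_right e, h.toES.zinv])
  rcases h.conj_B p ha ((h.com p.hs ha).2 h1).symm hb hw k' with ⟨c, e⟩ | ⟨c, e⟩
  · rw [mul_assoc, ← mul_assoc b, e, mul_assoc, ← mul_assoc] at hx
    rcases h.sq a ha with u | u <;> rcases p.r.sq b hb with v | v <;> rw [u, v] at hx
    · rw [c, h2.1 u, h3.1 v]; simp
    all_goals simp [*] at hx
  · rw [mul_assoc, ← mul_assoc b, e, show a * (a * (z * s) * b * b) = a * a * z * (s * (b * b)) by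
      group] at hx
    rcases h.sq a ha with u | u <;> rcases p.r.sq b hb with v | v <;> rw [u, v] at hx
    · simp [*] at hx
    · simp [*, p.r.zsq] at hx
    · simp [*, h.zsq] at hx
    · rw [c, ne01.1 fun e => n1 (u ▸ h2.2 e), ne01.1 fun e => n2 (v ▸ h3.2 e)]; simp

theorem sqb {b : G} {w : V} (hb : b ∈ R) (hw : polar q (χ s) w = 0)
    (k : Act Q z χ b (eich q (χ s) w)) : b * b = pw s (q w) := by
  rcases z01 (q w) with c | c <;> rw [c]
  · exact (h.sq_B p hb hw k).2 c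
  · exact (p.r.sq b hb).resolve_left (by rw [h.sq_B p hb hw k, c]; decide)

theorem lb {b b' : G} {w w' : V} (hb : b ∈ R) (hw : polar q (χ s) w = 0)
    (k : Act Q z χ b (eich q (χ s) w)) (hb' : b' ∈ R) (hw' : polar q (χ s) w' = 0)
    (k' : Act Q z χ b' (eich q (χ s) w')) : b' * b = b * b' * pw s (polar q w w') := by
  have h4 := es_sq_mul p.r.toES hb hb'
  have k'' := k.mul h.toLS k'
  rw [eich_mul (h.qe p) hw hw'] at k''
  rw [h.sq_B p (mul_mem hb hb') (by rw [polar_add_right, hw, hw', add_zero]) k'', h.sq_B p hb hw k,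
    h.sq_B p hb' hw' k', q_add] at h4
  have h6 : Commute b b' ↔ polar q w w' = 0 := by
    generalize q w = x, q w' = y, polar q w w' = c, Commute b b' = P at h4 ⊢
    rcases z01 x with rfl | rfl <;> rcases z01 y with rfl | rfl <;> rcases z01 c with rfl | rfl <;>
      first | simpa using h4 | simpa [show (1 + 1 : ZMod 2) = 0 from rfl] using h4
  rcases z01 (polar q w w') with c | c <;> rw [c]
  · rw [pw0, mul_one, (h6.2 c).eq]
  · have := p.r.toES.conj_eq hb' hb (by rw [Commute.symm_iff, h6, c]; decide)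
    rw [pw1, mul_inv_eq_iff_eq_mul.1 this, mul_assoc, (p.r.central b' hb').eq, mul_assoc]

theorem lab {a b : G} {w : V} (ha : a ∈ Q) (has : Commute a s) (hb : b ∈ R)
    (hw : polar q (χ s) w = 0) (k : Act Q z χ b (eich q (χ s) w)) :
    b * a = a * (pw z (polar q w (χ a)) * pw s (polar q w (χ a))) * b := by
  rcases h.conj_B p ha has hb hw k with ⟨c, e⟩ | ⟨c, e⟩ <;> simp [c, e]

theorem comm_R {a b a' b' : G} {w w' : V} (ha : a ∈ Q) (has : Commute a s) (hb : b ∈ R)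
    (hw : polar q (χ s) w = 0) (k : Act Q z χ b (eich q (χ s) w)) (ha' : a' ∈ Q)
    (has' : Commute a' s) (hb' : b' ∈ R) (hw' : polar q (χ s) w' = 0)
    (k' : Act Q z χ b' (eich q (χ s) w')) : Commute (a * b) (a' * b') ↔
      polar q w (χ a') = polar q (χ a) (χ a') + polar q w' (χ a) ∧
      polar q w (χ a') = polar q w' (χ a) + polar q w w' := by
  have e1 : a * b * (a' * b') = a * a' * (pw z (polar q w (χ a')) * pw s (polar q w (χ a'))) *
      (b * b') := by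
    rw [mul_assoc a, ← mul_assoc b, h.lab p ha' has' hb hw k]; group
  have e2 : a' * b' * (a * b) = a * a' * (pw z (polar q (χ a) (χ a') + polar q w' (χ a)) *
      pw s (polar q w' (χ a) + polar q w w')) * (b * b') := by
    rw [mul_assoc a', ← mul_assoc b', h.lab p ha has hb' hw' k', mul_assoc _ b',
      h.lb p hb hw k hb' hw' k', (pw_comm (p.r.central _ (mul_mem hb hb')).symm _).eq,
      ← pw_add h.zsq, ← pw_add p.r.zsq, ← mul_assoc, ← mul_assoc, ← mul_assoc a', h.la ha ha']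
    group
  rw [commute_iff_eq, e1, e2, mul_left_inj, mul_right_inj, pw_inj p]

theorem lam {x a : G} {σ : OG q} (hx : ZT Q z x) (hQ : x ∉ Q) (k : Act Q z χ x σ) (ha : a ∈ Q)
    (e : σ.1 (χ a) = χ a) : Commute a x := by
  obtain ⟨m, h1, h2⟩ := hx
  by_cases h5 : m * z * m⁻¹ = z
  · rw [h.toLS.cj_eq (k := 1) (by simpa using h5), cj_one] at h2
    exact absurd h2 hQ
  have p' := pr_of h.toLS h1 h5
  obtain ⟨w, h6, h7⟩ := h.act_B p' h2 k.1
  have h8 : w ∉ Submodule.span (ZMod 2) {χ (m * z * m⁻¹)} := fun e => hQ (h.act_one.1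
    ((Classical.AutO.eich_eq_one_iff nd (h.e0 p') (h.qe p') h6).2 e ▸ h7))
  rw [h.uniq k h7, eich_ap (h.qe p') h6, add_assoc, add_eq_left] at e
  have h9 : polar q (χ (m * z * m⁻¹)) (χ a) = 0 := by
    by_contra hn
    rw [ne01.1 hn, one_smul] at e
    exact h8 (Submodule.mem_span_singleton.2 ⟨_, (eq_neg_of_add_eq_zero_left e).trans (negv w)⟩)
  rw [h9, zero_smul, add_zero, mul_zero, sub_zero] at e
  rcases h.conj_B p' ha ((h.com h1 ha).2 h9).symm h2 h6 h7 with ⟨-, e'⟩ | ⟨e', -⟩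
  · exact e'.symm
  · rw [e', one_smul] at e; exact absurd e (h.e0 p')

theorem zt_of {a b g : G} {w : V} (hg : g * z * g⁻¹ = s) (ha : a ∈ Q) (hb : b ∈ R)
    (hw : polar q (χ s) w = 0) (k' : Act Q z χ b (eich q (χ s) w))
    (e : χ a ∈ Submodule.span (ZMod 2) {χ s} ∨ χ a + w ∈ Submodule.span (ZMod 2) {χ s}) :
    ZT Q z (a * b) := by
  have hR := p.tr g hg
  rcases e with e | e
  · exact ⟨g, hg ▸ p.hs, hR ▸ mul_mem ((h.inU_of p ha e).memR p) hb⟩
  · obtain ⟨y, hy, e1⟩ := h.toES.exists_not_commute p.hs p.r.ne p.ne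
    obtain ⟨c, e2⟩ := h.ch_y p hy (fun e => e1 e.symm) hw k'
    have h4 := h.norm y (h.central y hy).symm a ha
    have h5 := mul_mem hy (h.norm b k'.1 _ (inv_mem hy))
    have h6 := (h.inU_of p (mul_mem h4 h5) (by
      rw [h.mul _ h4 _ h5, e2, (h.act_one.2 hy).2 a ha, OG.one_apply, ← add_assoc]
      exact add_mem e (Submodule.smul_mem _ _ (Submodule.mem_span_singleton_self _)))).memR p
    refine ZT.conj h.toLS (h.central y hy).symm ⟨g, hg ▸ p.hs, ?_⟩
    have := mul_mem h6 hb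
    rwa [show y * a * y⁻¹ * (y * (b * y⁻¹ * b⁻¹)) * b = y * (a * b) * y⁻¹ by group, ← hR] at this

variable (hs : χ s = ee) {v w c1 c2 : V} {g : Fin 4 → V} (f : FR v w c1 c2 g) {a b : G}
  (ha : a ∈ Q) (hv : χ a = v) (hb : b ∈ R) (k : Act Q z χ b (eich q ee w))
include hs f ha hv hb k

theorem conjU {u : G} (hu : InU z s u) :
    ∃ n, Commute n z ∧ Commute n s ∧ n * (a * b) * n⁻¹ = a * u * b := by
  have key : ∀ x, polar q ee x = 0 → ∃ n, Commute n z ∧ Commute n s ∧ n * (a * b) * n⁻¹ =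
      a * (pw z (polar q x v + polar q w x) * pw s (polar q w x)) * b := fun x hx => by
    obtain ⟨c, hc, rfl⟩ := h.surj x
    have cs := ((h.com p.hs hc).2 (hs ▸ hx)).symm
    have cz := (h.central c hc).symm
    refine ⟨c⁻¹, cz.inv_left, cs.inv_left, ?_⟩
    rw [inv_inv, mul_assoc, mul_assoc, h.lab p hc cs hb (hs ▸ f.ew) (hs ▸ k), ← mul_assoc a,
      ← mul_assoc a, h.la hc ha, hv, ← pw_add h.zsq]
    group
  have a2 := (polar_comm _ _ _).trans f.a2
  have a4 := (polar_comm _ _ _).trans f.a4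
  rcases hu with rfl | rfl | rfl | rfl
  · exact ⟨1, Commute.one_left _, Commute.one_left _, by group⟩
  · simpa [f.a1, a2] using key c1 f.e1
  · simpa [f.a1, a2, f.a3, a4, polar_add_left, polar_add_right, o2] using
      key (c1 + c2) (by rw [polar_add_right, f.e1, f.e2, add_zero])
  · simpa [f.a3, a4] using key c2 f.e2

theorem hc_of {a' : G} (ha' : a' ∈ Q) (h1 : polar q ee (χ a') = 0) (h2 : q (χ a') = q w)
    (h3 : polar q w (χ a') = q w) (h4 : χ a' ∉ Submodule.span (ZMod 2) {ee})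
    (h5 : χ a' + w ∉ Submodule.span (ZMod 2) {ee}) :
    ∃ n, Commute n z ∧ Commute n s ∧ n * (a * b) * n⁻¹ = a' * b := by
  obtain ⟨τ, t0, t1, t2, t3⟩ := f.tr _ h1 h2 h3 h4 h5
  obtain ⟨m, km, e⟩ := h.lift_to t0 p.hs p.hs p.r.ne p.ne (by rw [hs, t1])
  have ms := Inv.commute_iff_conj.2 e
  have h4 := km.conj h.toLS k
  rw [eich_conj, t1, t2] at h4
  have h5 := h.inf p (h.diff k h4) (mul_mem hb (inv_mem (p.r.norm m ms b hb)))
  have h6 := h.norm m km.1 a ha
  obtain ⟨c, h7, -⟩ := h.chU p h5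
  have h8 := mul_mem (mul_mem (inv_mem h6) ha') (h5.memQ p)
  have h9 := h.inU_of p h8 (by
    rw [h.mul _ (mul_mem (inv_mem h6) ha') _ (h5.memQ p), h.mul _ (inv_mem h6) _ ha', h.inv h6,
      km.2 a ha, hv, t3, vv, zero_add, h7]
    exact Submodule.smul_mem _ _ (Submodule.mem_span_singleton_self _))
  obtain ⟨n, n1, n2, n3⟩ := h.conjU p hs f ha hv hb k h9
  refine ⟨m * n, km.1.mul_left n1, ms.mul_left n2, ?_⟩
  rw [show m * n * (a * b) * (m * n)⁻¹ = m * (n * (a * b) * n⁻¹) * m⁻¹ by group, n3,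
    show ∀ u, m * (a * u * b) * m⁻¹ = m * a * m⁻¹ * (m * u * m⁻¹) * (m * b * m⁻¹) by intro; group,
    Inv.commute_iff_conj.1 (h9.comm km.1 ms)]
  group

theorem cls0 {n x : G} (hn : n * z * n⁻¹ = s) (hx : x * x = 1) (k' : Act Q z χ x (eich q ee w)) :
    ZT Q z x ∨ HC z (a * b) x := by
  obtain ⟨a', ha', rfl, h1, h2, h3⟩ := h.dec p hx hb (hs ▸ f.ew) (hs ▸ nsp_of f.e2 f.a4) (hs ▸ k')
    (hs ▸ k)
  by_cases e : χ a' ∈ Submodule.span (ZMod 2) {ee} ∨ χ a' + w ∈ Submodule.span (ZMod 2) {ee}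
  · exact .inl (h.zt_of p hn ha' hb (hs ▸ f.ew) (hs ▸ k) (hs ▸ e))
  · obtain ⟨m, h4, -, h5⟩ := h.hc_of p hs f ha hv hb k ha' (hs ▸ h1) h2 h3 (fun e' => e (.inl e'))
      fun e' => e (.inr e')
    exact .inr ⟨m, h4, h5⟩

theorem t_sq : a * b * (a * b) = 1 := by
  have hw : polar q (χ s) w = 0 := hs ▸ f.ew
  rw [mul_assoc, ← mul_assoc b, h.lab p ha ((h.com p.hs ha).2 (hs ▸ hv ▸ f.ev)).symm hb hw (hs ▸ k),
    show ∀ u u', a * (a * (u * u') * b * b) = a * a * u * (u' * (b * b)) by intros; group,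
    h.sqa ha, h.sqb p hb hw (hs ▸ k), hv, f.qv, f.vw, pw_add h.zsq, pw_add p.r.zsq]
  rcases z01 (q w) with c | c <;> simp [c, o2]

theorem tQ : a * b ∉ Q := fun e =>
  eich_ne (nsp_of f.e2 f.a4) f.ew (h.uniq (h.mulQ ha k) (h.act_one.2 e))

theorem com_t {x : G} (hx : x ∈ Q) (h1 : polar q ee (χ x) = 0) :
    Commute x (a * b) ↔ polar q v (χ x) = 0 ∧ polar q w (χ x) = 0 := by
  have := h.comm_R p hx ((h.com p.hs hx).2 (hs ▸ h1)).symm (one_mem R) (w := 0) (by simp)
    (by simpa using h.act_one.2 (one_mem _)) ha ((h.com p.hs ha).2 (hs ▸ hv ▸ f.ev)).symm hb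
    (hs ▸ f.ew) (hs ▸ k)
  rw [mul_one] at this
  rw [this, hv, polar_comm q (χ x)]
  simp only [polar_zero_left, add_zero]
  generalize polar q v (χ x) = c, polar q w (χ x) = d
  revert c d; decide

theorem nzt : ¬ ZT Q z (a * b) := fun e => by
  obtain ⟨x, hx, e1⟩ := h.surj c1
  have := h.lam p e (h.tQ p hs f ha hv hb k) (h.mulQ ha k) hx (by
    rw [e1, eich_apply_of_orth qee f.ew f.e1 ((polar_comm _ _ _).trans f.a2)])
  rw [h.com_t p hs f ha hv hb k hx (e1 ▸ f.e1), e1, polar_comm, f.a1] at this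
  exact absurd this.1 (by decide)

end CO

end Cfsg.Agent.CoI
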