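import Cfsg.Agent.CoI.F

/-! Involutions of rank four are fused to involutions of rank at most two. -/

set_option autoImplicit false
set_option linter.unusedSectionVars false
set_option linter.unusedSimpArgs false

namespace Cfsg.Agent.CoI

open Cfsg Subgroup LocalEven Fischer PLocal Orth QuadraticMap Module

variable {G : Type*} [Group G] [Finite G] {Q R R1 : Subgroup G} {z s s1 : G} {χ : G → V}

theorem InU.symm {u : G} (hu : InU z s u) (h : Commute z s) : InU s z u := by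
  rcases hu with rfl | rfl | rfl | rfl
  exacts [.inl rfl, .inr (.inr (.inl rfl)), .inr (.inl rfl), .inr (.inr (.inr h.eq))]

theorem InU.of_comm {u y : G} (hu : InU z s u) (h1 : Commute y z) (h2 : ¬ Commute y s)
    (h3 : Commute y u) : u = 1 ∨ u = z := by
  rcases hu with rfl | rfl | rfl | rfl
  exacts [.inl rfl, .inr rfl, absurd h3 h2, absurd (by simpa using h1.inv_right.mul_right h3) h2]

theorem InU.sq (p : Pr Q R z s) {u : G} (hu : InU z s u) : u * u = 1 :=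
  p.E_sq ⟨hu.memQ p, hu.memR p⟩

theorem tr_mul {g k y : G} (hs : s * s = 1) (h : Commute g s) (a : g * y * g⁻¹ = y ∨ g * y * g⁻¹ = y * s)
    (b : k * y * k⁻¹ = y ∨ k * y * k⁻¹ = y * s) :
    g * k * y * (g * k)⁻¹ = y ∨ g * k * y * (g * k)⁻¹ = y * s := by
  rw [show g * k * y * (g * k)⁻¹ = g * (k * y * k⁻¹) * g⁻¹ by group]
  rcases b with b | b <;> rw [b]
  · exact a
  · rw [show g * (y * s) * g⁻¹ = g * y * g⁻¹ * (g * s * g⁻¹) by group, Inv.commute_iff_conj.1 h]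
    rcases a with a | a <;> rw [a]
    · exact .inr rfl
    · exact .inl (by rw [mul_assoc, hs, mul_one])

set_option synthInstance.maxSize 4096 in
theorem fin_chk : ∀ a a' b b' c c' : ZMod 2, (a ≠ 0 ∨ a' ≠ 0) → c * c' = 0 →
    b * b' + (a * b' + a' * b) + (b * c' + b' * c) = 0 →
    (a * c' + a' * c) + (a * b' + a' * b) + a * a' = 0 →
    (b = 0 ∧ b' = 0) ∨ (b + a = 0 ∧ b' + a' = 0) := by decide

theorem pw_nf (p : Pr Q R z s) (a b c d : ZMod 2) :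
    pw z a * pw s b * (pw z c * pw s d) = pw z (a + c) * pw s (b + d) := by
  rw [← pw_add p.l.zsq, ← pw_add p.r.zsq, mul_assoc, ← mul_assoc (pw s b),
    ← (pw_comm (pw_comm p.comm.symm c).symm b).eq]
  group

theorem pol3 {u v : V} (u0 : u (.inr 0) = 0) (u1 : u (.inr 1) = 0) (u2 : u (.inr 2) = 0)
    (v0 : v (.inr 0) = 0) (v1 : v (.inr 1) = 0) (v2 : v (.inr 2) = 0) :
    polar q u v = u (.inl 3) * v (.inr 3) + u (.inr 3) * v (.inl 3) := by
  simp [polar_plusQ, Fin.sum_univ_four, *]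

theorem q3 {u : V} (u0 : u (.inr 0) = 0) (u1 : u (.inr 1) = 0) (u2 : u (.inr 2) = 0) :
    q u = u (.inl 3) * u (.inr 3) := by
  simp [plusQ_apply, Fin.sum_univ_four, *]

namespace CO
variable (h : CO Q z χ) (p : Pr Q R z s) (hs : χ s = ee)
include h p hs

theorem lemP {a x0 b y' : G} (hy' : y' ∈ R) (e2 : y' * z * y'⁻¹ = z * s) (ha : a ∈ Q)
    (k0 : Act Q z χ x0 (eich q (E 1) (E 2))) (xs : Commute x0 s)
    (hx0 : x0 * y' * x0⁻¹ = y' ∨ x0 * y' * x0⁻¹ = y' * s) (hb : b ∈ R) (bz : Commute b z)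
    (hv : ∀ i, χ a (.inr i) = 0) (hv' : χ a (.inl 3) = 0) (hx : a * x0 * b * (a * x0 * b) = 1) :
    ∃ n σ, Act Q z χ (n * (a * x0 * b) * n⁻¹) σ ∧ (σ = 1 ∨ rk σ = 2) := by
  obtain ⟨c, hc, e1⟩ := h.surj (χ a (.inl 1) • F 2 + χ a (.inl 2) • F 1)
  have cs : Commute c s := ((h.com p.hs hc).2 (by rw [hs, e1]; simp [q_add, polar_add_left, polar_add_right, pE, pF, El, Er, Fl, Fr, qE, qF, o2, two0])).symm
  have cz := (h.central c hc).symm
  have h1 := h.norm x0 k0.1 _ (inv_mem hc)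
  have hu := h.inU_of p (mul_mem (mul_mem hc ha) h1) (by
    rw [h.mul _ (mul_mem hc ha) _ h1, h.mul _ hc _ ha, k0.2 _ (inv_mem hc), h.inv hc, s0_ap, e1, hs]
    refine Submodule.mem_span_singleton.2 ⟨χ a (.inl 0), vext (fun i => ?_) fun i => ?_⟩ <;>
      fin_cases i <;> simp [El, Er, Fl, Fr, hv, hv', CharTwo.add_self_eq_zero])
  have h2 := p.r.norm c cs b hb
  have e3 : c * (a * x0 * b) * c⁻¹ = c * a * (x0 * c⁻¹ * x0⁻¹) * (x0 * (c * b * c⁻¹)) := by group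
  have h3 := tr_mul p.r.zsq (p.r.central _ (hu.memR p)).symm (p.r.conj _ (hu.memR p) y' hy')
    (tr_mul p.r.zsq xs hx0 (p.r.conj _ h2 y' hy'))
  have h4 : Commute (c * (a * x0 * b) * c⁻¹) z :=
    (cz.mul_left (((h.central a ha).symm.mul_left k0.1).mul_left bz)).mul_left cz.inv_left
  have h5 : Commute (c * (a * x0 * b) * c⁻¹) s := e3 ▸ (p.r.central _ (hu.memR p)).symm.mul_left
    (xs.mul_left (p.r.central _ h2).symm)
  have h6 : c * (a * x0 * b) * c⁻¹ * (c * (a * x0 * b) * c⁻¹) = 1 := by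
    rw [show ∀ x, c * x * c⁻¹ * (c * x * c⁻¹) = c * (x * x) * c⁻¹ by intro; group, hx]; group
  rw [← e3] at h3
  obtain ⟨y, hy, e4⟩ := h.toES.exists_conj p.hs p.r.ne p.ne
  obtain ⟨n1, n2⟩ := conj_swap h.zsq p.r.zsq p.comm (Inv.commute_iff_conj.1 (h.central y hy).symm) e4
    e2 (Inv.commute_iff_conj.1 (p.r.central y' hy').symm)
  generalize y' * y * y' = n at n1 n2
  have h7 : n⁻¹ * y' * n ∈ Q := by rwa [← mem_cj, p.tr n n1]
  have n3 : n⁻¹ * s * n = z := by rw [← n1]; group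
  have e5 : n⁻¹ * c * (a * x0 * b) * (n⁻¹ * c)⁻¹ = n⁻¹ * (c * (a * x0 * b) * c⁻¹) * n := by group
  generalize c * (a * x0 * b) * c⁻¹ = x at h3 h4 h5 h6 e5
  obtain ⟨σ, h8, k⟩ := h.ex (n⁻¹ * x * n) (by
    have := (commute_cj_iff n⁻¹ x z).2 (by rwa [inv_inv, n1]); rwa [inv_inv] at this)
  refine ⟨n⁻¹ * c, σ, e5 ▸ k, rk_le_two h8 (h.uniq (k.mul h.toLS k) ?_) (e := χ s)
    (f := χ (n⁻¹ * y' * n)) ?_ ?_ ?_⟩
  · rw [show n⁻¹ * x * n * (n⁻¹ * x * n) = n⁻¹ * (x * x) * n by group, h6]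
    simpa using h.act_one.2 (one_mem _)
  · rw [← k.2 s p.hs, Inv.commute_iff_conj.1]
    have := (commute_cj_iff n⁻¹ x s).2 (by rwa [inv_inv, n2]); rwa [inv_inv] at this
  · rw [← k.2 _ h7, show n⁻¹ * x * n * (n⁻¹ * y' * n) * (n⁻¹ * x * n)⁻¹ =
      n⁻¹ * (x * y' * x⁻¹) * n by group]
    rcases h3 with e | e <;> rw [e]
    rw [show n⁻¹ * (y' * s) * n = n⁻¹ * y' * n * (n⁻¹ * s * n) by group, n3, h.mul _ h7 _ h.mem,
      h.chz, add_zero]
  · rw [← ne01, Ne, ← h.com p.hs h7, ← commute_cj_iff, n2]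
    exact fun e => p.r.toES.not_commute_of_conj e2 e.symm

theorem com_s {x : G} {α : V} (hα : Al α) (hx : x * x = 1) (k : Act Q z χ x (rho α)) {c : G}
    (hc : c ∈ Q) (e : ∃ b, (rho α).1 b = b + χ c) (hq : q (χ c) = 0) : Commute c x := by
  obtain ⟨β, hβ⟩ := e
  obtain ⟨y, hy, rfl⟩ := h.surj β
  have h1 := mul_mem (h.norm x k.1 y hy) (inv_mem hy)
  have h2 : χ (x * y * x⁻¹ * y⁻¹) = χ c := by
    rw [h.mul _ (h.norm x k.1 y hy) _ (inv_mem hy), k.2 y hy, h.inv hy, hβ, add_right_comm, vv,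
      zero_add]
  have h3 := (h.sq' _ h1).2 (h2 ▸ hq)
  have h4 : Commute x (x * y * x⁻¹ * y⁻¹) := by
    rw [Inv.commute_iff_conj, show x * (x * y * x⁻¹ * y⁻¹) * x⁻¹ = x * x * (y * x⁻¹ * y⁻¹ * x⁻¹) by
      group, hx, one_mul, ← inv_eq_of_mul_eq_one_left h3]
    nth_rw 1 [inv_eq_of_mul_eq_one_left hx]
    group
  rcases h.eqor hc h1 h2.symm with e | e <;> rw [e]
  · exact h4.symm
  · exact (h4.mul_right k.1).symm

theorem red (p1 : Pr Q R1 z s1) (hs1 : χ s1 = E 1) {x : G} {α : V} (hα : Al α) (hx : x * x = 1)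
    (k : Act Q z χ x (rho α)) : ∃ n σ, Act Q z χ (n * x * n⁻¹) σ ∧ (σ = 1 ∨ rk σ = 2) := by
  obtain ⟨α0, α1, α2⟩ := hα.perp
  have xs := (h.com_s p hs hα hx k p.hs (hs ▸ hα.star) (h.qe p)).symm
  have hw : polar q (χ s) α = 0 := hs ▸ α0
  obtain ⟨b, hb, kb⟩ := h.exists_B p hw
  have bs := (p.r.central b hb).symm
  have k1 : Act Q z χ (x * b⁻¹) (eich q (E 1) (E 2)) := by
    have := k.mul h.toLS (kb.inv h.toLS)
    rwa [hs, rho, mul_inv_cancel_right] at this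
  obtain ⟨y', hy', e2⟩ := p.r.toES.exists_conj p.hz h.ne p.ne.symm
  have n1 : ¬ Commute y' z := p.r.toES.not_commute_of_conj e2
  have y's := (p.r.central y' hy').symm
  have s1' := xs.mul_left bs.inv_left
  have h1 := p.r.norm _ s1' y' hy'
  obtain ⟨β, hβ, kd⟩ := h.act_B p (mul_mem h1 (inv_mem hy')) (by
    rw [p.r.toES.commute_mul_iff h1 (inv_mem hy') p.hz, commute_cj_iff, Commute.inv_left_iff,
      show (x * b⁻¹)⁻¹ * z * (x * b⁻¹) = z by simpa using Inv.commute_iff_conj.1 k1.1.inv_left])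
  obtain ⟨a, ha, rfl⟩ := h.surj β
  have as := ((h.com p.hs ha).2 hβ).symm
  have az := (h.central a ha).symm
  obtain ⟨h2, h3, -⟩ := h.bb p hy' e2 (inv_mem ha) as.inv_left
  rw [h.inv ha] at h3
  have hu := h.inf p (h.diff kd h3) (mul_mem (mul_mem h1 (inv_mem hy')) (inv_mem h2))
  have k0 := h.mulQ (inv_mem ha) k1
  have s0 := as.inv_left.mul_left s1'
  have e0 : x = a * (a⁻¹ * (x * b⁻¹)) * b := by group
  have e3 : a⁻¹ * (x * b⁻¹) * y' * (a⁻¹ * (x * b⁻¹))⁻¹ = a⁻¹ * (x * b⁻¹ * y' * (x * b⁻¹)⁻¹ * y'⁻¹ *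
      (a⁻¹⁻¹ * y' * a⁻¹ * y'⁻¹)⁻¹) * a * y' := by group
  rw [mul_assoc a⁻¹ _ a, ← (hu.comm az as).eq, inv_mul_cancel_left] at e3
  generalize x * b⁻¹ * y' * (x * b⁻¹)⁻¹ * y'⁻¹ * (a⁻¹⁻¹ * y' * a⁻¹ * y'⁻¹)⁻¹ = u at hu e3
  generalize a⁻¹ * (x * b⁻¹) = x0 at k0 s0 e0 e3
  clear kd h3 h2 h1 s1' k1
  have h4 : Commute y' u := by
    have := es_sq_mul p.r.toES (hu.memR p) hy'
    rw [← e3, show x0 * y' * x0⁻¹ * (x0 * y' * x0⁻¹) = x0 * (y' * y') * x0⁻¹ by group, hu.sq p] at this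
    rcases p.r.sq y' hy' with e | e <;> rw [e] at this
    · simpa [Commute.symm_iff] using this
    · rw [Inv.commute_iff_conj.1 s0] at this
      simpa [Commute.symm_iff, p.r.ne, p.r.ne.symm] using this
  have h5 : x0 * y' * x0⁻¹ = y' ∨ x0 * y' * x0⁻¹ = y' * s := by
    rcases (hu.symm p.comm).of_comm y's n1 h4 with rfl | rfl
    · exact .inl (by rw [e3, one_mul])
    · exact .inr (by rw [e3, y's.eq])
  obtain ⟨y, hy, e4⟩ := h.surj (F 0)
  have n2 : ¬ Commute y s := by rw [h.com hy p.hs, e4, hs]; simp [q_add, polar_add_left, polar_add_right, pE, pF, El, Er, Fl, Fr, qE, qF, o2, two0]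
  have yz := (h.central y hy).symm
  have h6 : x0 * y * x0⁻¹ = y ∨ x0 * y * x0⁻¹ = y * z :=
    h.eqor (h.norm x0 k0.1 y hy) hy (by rw [k0.2 y hy, e4, s0_ap]; simp [q_add, polar_add_left, polar_add_right, pE, pF, El, Er, Fl, Fr, qE, qF, o2, two0])
  have sq2 : ∀ {y u : G}, u * u = 1 → Commute x0 u → x0 * y * x0⁻¹ = y ∨ x0 * y * x0⁻¹ = y * u →
      Commute y (x0 * x0) := fun {y u} a b c => by
    rw [Commute.symm_iff, Inv.commute_iff_conj, show x0 * x0 * y * (x0 * x0)⁻¹ =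
      x0 * (x0 * y * x0⁻¹) * x0⁻¹ by group]
    rcases c with c | c
    · rw [c, c]
    · rw [c, show x0 * (y * u) * x0⁻¹ = x0 * y * x0⁻¹ * (x0 * u * x0⁻¹) by group, c,
        Inv.commute_iff_conj.1 b, mul_assoc, a, mul_one]
  have h7 : x0 * x0 = 1 := by
    have q0 : x0 * x0 ∈ Q := h.act_one.1 (eich_sq (qE 1) (w := E 2) (by simp [q_add, polar_add_left, polar_add_right, pE, pF, El, Er, Fl, Fr, qE, qF, o2, two0]) ▸ k0.mul h.toLS k0)
    have c1 := sq2 p.r.zsq s0 h5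
    obtain ⟨-, q1, -⟩ := h.bb p hy' e2 q0 (s0.mul_left s0)
    rw [mul_assoc _ y', c1.eq, inv_mul_cancel_left, mul_inv_cancel] at q1
    have q2 := h.inU_of p q0 ((Classical.AutO.eich_eq_one_iff nd (h.e0 p) (h.qe p)
      ((h.com p.hs q0).1 (s0.mul_left s0).symm)).1 (h.uniq q1 (h.act_one.2 (one_mem _))))
    rcases (q2.symm p.comm).of_comm y's n1 c1 with e | e
    · exact e
    · exact absurd (e ▸ sq2 h.zsq k0.1 h6) n2
  obtain ⟨b0, hb0, kb0⟩ := h.exists_B p1 (w := E 2) (by rw [hs1]; simp [q_add, polar_add_left, polar_add_right, pE, pF, El, Er, Fl, Fr, qE, qF, o2, two0])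
  obtain ⟨a0, ha0, e5, v1, v0, v2⟩ := h.dec p1 h7 hb0 (w := E 2) (by rw [hs1]; simp [q_add, polar_add_left, polar_add_right, pE, pF, El, Er, Fl, Fr, qE, qF, o2, two0]) (fun e => by
    obtain ⟨c, hc⟩ := Submodule.mem_span_singleton.1 e
    simpa [hs1, El] using congrFun hc (.inl 2)) (hs1 ▸ k0) kb0
  rw [hs1, pE] at v1
  rw [qE] at v0 v2
  rw [pE] at v2 α0 α1 α2
  have lam : ∀ c ∈ Q, χ c (.inr 1) = 0 → χ c (.inr 2) = 0 →
      x0 * c * x0⁻¹ = c * pw z (polar q (χ c) (χ a0)) := fun c hc c1 c2 => by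
    have := h.lab p1 hc ((h.com p1.hs hc).2 (by rw [hs1, pE, c1])).symm hb0 (by rw [hs1]; simp [q_add, polar_add_left, polar_add_right, pE, pF, El, Er, Fl, Fr, qE, qF, o2, two0]) kb0
    rw [pE, c2, pw0, pw0, mul_one, mul_one] at this
    rw [e5, mul_assoc a0, this, ← mul_assoc, h.la hc ha0,
      mul_assoc c, (pw_comm (h.central a0 ha0).symm _).eq]
    group
  have v3 : χ a0 (.inr 0) = 0 := by
    have := lam s p.hs (by rw [hs]; simp [q_add, polar_add_left, polar_add_right, pE, pF, El, Er, Fl, Fr, qE, qF, o2, two0]) (by rw [hs]; simp [q_add, polar_add_left, polar_add_right, pE, pF, El, Er, Fl, Fr, qE, qF, o2, two0])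
    rw [Inv.commute_iff_conj.1 s0, hs, pE, left_eq_mul] at this
    by_contra hn
    rw [ne01.1 hn, pw1] at this
    exact h.ne this
  have kb' := k0.conj h.toLS kb
  rw [eich_conj, hs, s0_ap, s0_ap, α1, α2, show ee (.inr 2) = 0 from Er 0 2,
    show ee (.inr 1) = 0 from Er 0 1] at kb'
  simp only [zero_smul, add_zero] at kb'
  have hb' := p.r.norm x0 s0 b hb
  have hu1 := h.inf p (h.diff kb' (hs ▸ kb)) (mul_mem hb' (inv_mem hb))
  have e6 : x0 * b * x0⁻¹ = x0 * b * x0⁻¹ * b⁻¹ * b := by group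
  generalize x0 * b * x0⁻¹ * b⁻¹ = u1 at hu1 e6
  have h8 : Commute y' u1 := by
    have t1 : Commute (x0 * b * x0⁻¹) (x0 * y' * x0⁻¹) ↔ Commute b y' := by
      rw [commute_cj_iff]; simp [mul_assoc]
    have t2 : Commute (u1 * b) (x0 * y' * x0⁻¹) ↔ Commute (u1 * b) y' := by
      rcases h5 with e | e <;> rw [e]
      rw [Commute.symm_iff, p.r.toES.commute_mul_z_iff (mul_mem (hu1.memR p) hb), Commute.symm_iff]
    rw [e6, t2, p.r.toES.commute_mul_iff (hu1.memR p) hb hy'] at t1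
    by_contra hn
    have : ¬ Commute u1 y' := fun e => hn e.symm
    by_cases hc : Commute b y' <;> simp [hc, this] at t1
  obtain ⟨c, e7⟩ := h.ch_y p hy n2 hw kb
  have h9 := mul_mem hy (h.norm b kb.1 _ (inv_mem hy))
  have e8 : u1 = pw s (polar q α (χ a0)) := by
    have t1 := lam _ h9 (by rw [e7, hs]; simp [α1, Er]) (by rw [e7, hs]; simp [α2, Er])
    rw [e7, polar_add_left, p_smul_left, hs, pE, v3, mul_zero, add_zero] at t1
    have t2 : x0 * (y * (b * y⁻¹ * b⁻¹)) * x0⁻¹ = y * (u1 * b) * y⁻¹ * (u1 * b)⁻¹ := by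
      rw [show x0 * (y * (b * y⁻¹ * b⁻¹)) * x0⁻¹ = x0 * y * x0⁻¹ * (x0 * b * x0⁻¹) *
        (x0 * y * x0⁻¹)⁻¹ * (x0 * b * x0⁻¹)⁻¹ by group, e6]
      rcases h6 with e | e <;> rw [e]
      rw [show y * z * (u1 * b) * (y * z)⁻¹ = y * (z * (u1 * b) * z⁻¹) * y⁻¹ by group,
        Inv.commute_iff_conj.1 (((hu1.comm (Commute.refl z) p.comm).mul_right kb.1.symm))]
    rw [t2] at t1
    rcases (hu1.symm p.comm).of_comm y's n1 h8 with rfl | rfl
    · rcases z01 (polar q α (χ a0)) with d | d <;> rw [d] at t1 ⊢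
      · rfl
      · exact absurd (by simpa [mul_assoc] using t1.symm) h.ne
    · rcases z01 (polar q α (χ a0)) with d | d <;> rw [d] at t1 ⊢
      · exfalso
        apply n2
        rw [pw0, mul_one, bs.symm.eq] at t1
        have : u1 * y⁻¹ * u1⁻¹ = y⁻¹ := mul_right_cancel (b := b⁻¹) (by simpa [mul_assoc] using t1)
        exact Commute.inv_left_iff.1 (Inv.commute_iff_conj.2 this).symm
      · rfl
  have e9 : a * (u1 * b) * (x0 * a * x0⁻¹) * b = 1 := by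
    rw [← e6, show a * (x0 * b * x0⁻¹) * (x0 * a * x0⁻¹) * b = a * x0 * b * (a * x0⁻¹ * b) by group,
      inv_eq_of_mul_eq_one_left h7, ← e0, hx]
  have β0 : χ a (.inr 0) = 0 := by rwa [hs, pE] at hβ
  obtain ⟨β1, β2⟩ : χ a (.inr 1) = 0 ∧ χ a (.inr 2) = 0 := by
    have hb2 : InU z s (b * b) := (p.r.sq b hb).elim .inl fun e => .inr (.inr (.inl e))
    obtain ⟨d1, t1, -⟩ := h.chU p hb2
    obtain ⟨d2, t2, -⟩ := h.chU p hu1
    have t3 := h.norm x0 k0.1 a ha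
    have t4 := h.norm b kb.1 _ t3
    have := congrArg χ (show a * u1 * (b * (x0 * a * x0⁻¹) * b⁻¹) * (b * b) = 1 by rw [← e9]; group)
    rw [h.mul _ (mul_mem (mul_mem ha (hu1.memQ p)) t4) _ (hb2.memQ p),
      h.mul _ (mul_mem ha (hu1.memQ p)) _ t4, h.mul _ ha _ (hu1.memQ p), kb.2 _ t3, k0.2 a ha,
      eich_ap (h.qe p) hw, t1, t2, h.one, hs, pE, s0_ap] at this
    have t5 := congrFun this (.inl 1)
    have t6 := congrFun this (.inl 2)
    simp [El, Er, β0, ← add_assoc, CharTwo.add_self_eq_zero] at t5 t6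
    exact ⟨t6, t5⟩
  rw [lam a ha β1 β2, show ∀ Z, a * (u1 * b) * (a * Z) * b = a * u1 * (b * a) * Z * b by intro; group,
    h.lab p ha as hb hw kb, show ∀ Y Z, a * u1 * (a * Y * b) * Z * b = a * (u1 * a) * Y * (b * Z) * b by
      intros; group, ← (hu1.comm az as).eq, (pw_comm kb.1 _).eq,
    show ∀ Y Z, a * (a * u1) * Y * (Z * b) * b = a * a * u1 * Y * (Z * (b * b)) by intros; group,
    h.sqa ha, h.sqb p hb hw kb, e8, pw_nf p, pw_nf p, ← mul_one (1 : G)] at e9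
  nth_rw 1 [← pw0 z] at e9
  rw [← pw0 s, pw_inj p, q3 β0 β1 β2, q3 α0 α1 α2, pol3 α0 α1 α2 β0 β1 β2, pol3 α0 α1 α2 v3 v1 v2,
    pol3 β0 β1 β2 v3 v1 v2] at e9
  rw [q3 v3 v1 v2] at v0
  rcases fin_chk _ _ _ _ _ _ (by rcases hα with rfl | rfl | rfl <;> simp [q_add, polar_add_left, polar_add_right, pE, pF, El, Er, Fl, Fr, qE, qF, o2, two0]) v0 e9.1 e9.2 with
    ⟨t1, t2⟩ | ⟨t1, t2⟩
  · rw [e0]
    exact h.lemP p hs hy' e2 ha k0 s0 h5 hb kb.1 (fun i => by fin_cases i <;> assumption) t1 (e0 ▸ hx)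
  · have t3 := h.norm b kb.1 _ (inv_mem hy)
    have t4 := h.norm x0 k0.1 _ t3
    have t5 : χ (y * a * (x0 * (b * y⁻¹ * b⁻¹) * x0⁻¹)) = χ a + α + (α (.inl 0) - q α) • ee := by
      rw [h.mul _ (mul_mem hy ha) _ t4, h.mul _ hy _ ha, k0.2 _ t3, kb.2 _ (inv_mem hy), h.inv hy, e4,
        eich_ap (h.qe p) hw, hs, s0_ap, pF', pE]
      simp only [Pi.add_apply, Pi.smul_apply, Er, Fr, α1, α2]
      simp
      rw [add_comm (F 0), add_assoc, ← add_assoc (F 0), ← add_assoc (F 0), vv, zero_add]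
      abel
    have t6 : y * a * (x0 * (b * y⁻¹ * b⁻¹) * x0⁻¹) * x0 * b = y * x * y⁻¹ := by rw [e0]; group
    obtain ⟨n, σ, t7⟩ := h.lemP p hs hy' e2 (mul_mem (mul_mem hy ha) t4) k0 s0 h5 hb kb.1
      (fun i => by rw [t5]; fin_cases i <;> simp [Er, β0, β1, β2, α0, α1, α2, t2])
      (by rw [t5]; simp [El, t1]) (by rw [t6, show ∀ x, y * x * y⁻¹ * (y * x * y⁻¹) =
        y * (x * x) * y⁻¹ by intro; group, hx]; group)
    exact ⟨n * y, σ, by rwa [t6, show n * (y * x * y⁻¹) * n⁻¹ = n * y * x * (n * y)⁻¹ by group] at t7⟩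

end CO

end Cfsg.Agent.CoI
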