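import Cfsg.Agent.CoI.G

/-! Groups of Conway type have three classes of involutions. -/

set_option autoImplicit false
set_option linter.unusedSectionVars false
set_option linter.unusedSimpArgs false
set_option linter.unusedVariables false

namespace Cfsg.Agent.CoI

open Cfsg Subgroup LocalEven Fischer PLocal Orth QuadraticMap Module

variable {G : Type*} [Group G] [Finite G] {Q R R1 : Subgroup G} {z s s1 : G} {χ : G → V}

theorem syl_into {t : G} {P S : Subgroup G} (hP : IsPGroup 2 P) (h1 : ∀ y ∈ P, Commute y t)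
    (h2 : ∀ y ∈ P, Commute y z) (hu : ∀ z0, IsConj z z0 → (∀ y ∈ P, Commute z0 y) → z0 = z)
    (hS : IsPGroup 2 S) (h3 : ∀ y ∈ S, Commute y t) :
    ∃ m, Commute m t ∧ ∀ y ∈ S, Commute (m * y * m⁻¹) z := by
  have : Fact (Nat.Prime 2) := ⟨Nat.prime_two⟩
  obtain ⟨T, hT⟩ := (hP.comap_subtype (K := centralizer {t})).exists_le_sylow
  obtain ⟨T', hT'⟩ := (hS.comap_subtype (K := centralizer {t})).exists_le_sylow
  obtain ⟨m, rfl⟩ := MulAction.exists_smul_eq (centralizer ({t} : Set G)) T' T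
  have := (m • T').isPGroup'.isNilpotent
  let T0 : Subgroup (m • T' : Sylow 2 (centralizer ({t} : Set G))) :=
    (centralizer {z}).comap ((Subgroup.subtype _).comp (Subgroup.subtype _))
  have h4 : T0 = ⊤ := normalizerCondition_iff_only_full_group_self_normalizing.1
    Group.normalizerCondition_of_isNilpotent T0 (le_antisymm (fun n hn => by
      refine Inv.mem_centralizer_single.2 (Inv.commute_iff_conj.2 (hu _ (isConj_iff.2 ⟨_, rfl⟩)
        fun y hy => ?_))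
      have := (mem_normalizer_iff''.1 hn ⟨⟨y, Inv.mem_centralizer_single.2 (h1 y hy)⟩, hT hy⟩).1
        (Inv.mem_centralizer_single.2 (h2 y hy))
      rw [commute_cj_iff]
      exact (Inv.mem_centralizer_single.1 this).symm) le_normalizer)
  refine ⟨m, Inv.mem_centralizer_single.1 m.2, fun y hy => ?_⟩
  have h5 : m * ⟨y, Inv.mem_centralizer_single.2 (h3 y hy)⟩ * m⁻¹ ∈ m • T' :=
    smul_mem_pointwise_smul _ (MulAut.conj m) _ (hT' hy)
  exact Inv.mem_centralizer_single.1 (h4.ge (mem_top ⟨_, h5⟩))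

/-- `x` is a commutator of elements centralizing `C_Q(x)` -/
def NCm (Q : Subgroup G) (z x : G) : Prop := ∃ r r', Commute r z ∧ Commute r' z ∧
  (∀ a ∈ Q, Commute a x → Commute a r ∧ Commute a r') ∧ Commute r x ∧ Commute r' x ∧
    r * r' * r⁻¹ = r' * x

theorem cjc {a b : G} (n : G) (h : Commute a b) : Commute (n * a * n⁻¹) (n * b * n⁻¹) := by
  rw [commute_cj_iff]; simpa [mul_assoc] using h

theorem NCm.conj (h : LS Q z) {x n : G} (hn : Commute n z) (a : NCm Q z x) :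
    NCm Q z (n * x * n⁻¹) := by
  obtain ⟨r, r', h1, h2, h3, h4, h5, h6⟩ := a
  refine ⟨n * r * n⁻¹, n * r' * n⁻¹, (hn.mul_left h1).mul_left hn.inv_left,
    (hn.mul_left h2).mul_left hn.inv_left, fun a ha e => ?_, cjc n h4, cjc n h5, ?_⟩
  · have := h3 _ (h.norm n⁻¹ hn.inv_left a ha) (by rw [commute_cj_iff]; simpa using e)
    rw [commute_cj_iff, commute_cj_iff, inv_inv] at this
    exact this
  · rw [show n * r * n⁻¹ * (n * r' * n⁻¹) * (n * r * n⁻¹)⁻¹ = n * (r * r' * r⁻¹) * n⁻¹ by group, h6]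
    group

set_option synthInstance.maxSize 4096 in
theorem fin_chk2 : ∀ a a' b b' : ZMod 2, b' = a' + a → b' = a + b →
    (a = 0 ∧ a' = 0 ∧ b = 0 ∧ b' = 0) ∨ ((b = 1 ∨ b' = 1) ∧ b' * a + b * a' ≠ 0 ∧
      b' * b + b * b' = 0) := by decide

namespace CO
variable (h : CO Q z χ) (p : Pr Q R z s) (hs : χ s = ee)
include h p hs

theorem fixv {r c : G} {σ : OG q} (k : Act Q z χ r σ) (hc : c ∈ Q) (e : Commute c r) :
    σ.1 (χ c) = χ c := by rw [← k.2 c hc, Inv.commute_iff_conj.1 e.symm]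

theorem fx_w {r t : G} {σ : OG q} {w : V} (hw : polar q ee w = 0) (k : Act Q z χ r σ)
    (kt : Act Q z χ t (eich q ee w)) (e : Commute r t) (f0 : σ.1 ee = ee) : Fx σ w := by
  have f3 := k.conj h.toLS kt
  rw [Inv.commute_iff_conj.1 e, eich_conj, f0] at f3
  have f4 : polar q ee (σ.1 w) = 0 := by rw [← f0, OG.map_polar, hw]
  have f5 := eich_mul qee f4 hw
  rw [h.uniq f3 kt, eich_sq qee hw, eq_comm, Classical.AutO.eich_eq_one_iff nd ee0 qee
    (by rw [polar_add_right, f4, hw, add_zero])] at f5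
  obtain ⟨d, f6⟩ := Submodule.mem_span_singleton.1 f5
  exact ⟨d, by rw [f6, add_comm (σ.1 w), ← add_assoc, vv, zero_add]⟩

theorem nc4 {x : G} {α : V} (hα : Al α) (hx : x * x = 1) (k : Act Q z χ x (rho α)) :
    ¬ NCm Q z x := by
  rintro ⟨r, r', h1, h2, h3, -, -, h6⟩
  obtain ⟨σ, h7, k1⟩ := h.ex r h1
  obtain ⟨τ, h8, k2⟩ := h.ex r' h2
  have key : ∀ i, (∃ b, (rho α).1 b = b + E i) → σ.1 (E i) = E i ∧ τ.1 (E i) = E i := fun i e => by
    obtain ⟨c, hc, e'⟩ := h.surj (E i)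
    have := h3 c hc (h.com_s p hs hα hx k hc (e' ▸ e) (e' ▸ qE i))
    exact e' ▸ ⟨h.fixv p hs k1 hc this.1, h.fixv p hs k2 hc this.2⟩
  have a0 := key 0 hα.star
  have a1 := key 1 ⟨F 2, by rw [rho_ap hα]; rcases hα with rfl | rfl | rfl <;> simp [q_add, polar_add_left, polar_add_right, pE, pF, El, Er, Fl, Fr, qE, qF, o2, two0]⟩
  have a2 := key 2 ⟨F 1, by rw [rho_ap hα]; rcases hα with rfl | rfl | rfl <;> simp [q_add, polar_add_left, polar_add_right, pE, pF, El, Er, Fl, Fr, qE, qF, o2, two0]⟩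
  exact nocomm4 h7 h8 a0.1 a1.1 a2.1 a0.2 a1.2 a2.2 hα
    (h.uniq (h6 ▸ k1.conj h.toLS k2) (k2.mul h.toLS k))

theorem all {n : G} (hn : n * z * n⁻¹ = s) {x : G} (hx : x ∈ Q) (x1 : x ≠ 1) (x2 : x * x = 1) :
    ∃ k, k * z * k⁻¹ = x := by
  by_cases xz : x = z
  · exact ⟨1, by simp [xz]⟩
  obtain ⟨k, -, e⟩ := h.conj_invol p.hs hx p.r.ne p.ne p.r.zsq x1 xz x2
  exact ⟨k * n, by rw [← e, ← hn]; group⟩

theorem com_ab {a b x : G} {w : V} (ha : a ∈ Q) (has : Commute a s) (hb : b ∈ R)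
    (hw : polar q ee w = 0) (k : Act Q z χ b (eich q ee w)) (hx : x ∈ Q) (h1 : polar q ee (χ x) = 0) :
    Commute x (a * b) ↔ polar q (χ a) (χ x) = 0 ∧ polar q w (χ x) = 0 := by
  have := h.comm_R p hx ((h.com p.hs hx).2 (hs ▸ h1)).symm (one_mem R) (w := 0) (by simp)
    (by simpa using h.act_one.2 (one_mem _)) ha has hb (hs ▸ hw) (hs ▸ k)
  rw [mul_one] at this
  rw [this, polar_comm q (χ x)]
  simp only [polar_zero_left, add_zero]
  generalize polar q (χ a) (χ x) = c, polar q w (χ x) = d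
  revert c d; decide

section
variable {v w c1 c2 : V} {g : Fin 4 → V} (f : FR v w c1 c2 g) {a b : G}
  (ha : a ∈ Q) (hv : χ a = v) (hb : b ∈ R) (k : Act Q z χ b (eich q ee w))
include f ha hv hb k

theorem lift_g (i : Fin 4) : ∃ c ∈ Q, χ c = g i ∧ Commute c (a * b) := by
  obtain ⟨c, hc, e⟩ := h.surj (g i)
  exact ⟨c, hc, e, (h.com_t p hs f ha hv hb k hc (e ▸ (f.g0 i).1)).2 (e ▸ (f.g0 i).2)⟩

theorem s_t : Commute s (a * b) :=
  ((h.com p.hs ha).2 (hs ▸ hv ▸ f.ev)).mul_right (p.r.central b hb)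

theorem ncf : ¬ NCm Q z (a * b) := by
  rintro ⟨r, r', h1, h2, h3, h4, h5, h6⟩
  obtain ⟨σ, h7, k1⟩ := h.ex r h1
  obtain ⟨τ, h8, k2⟩ := h.ex r' h2
  have kt := h.mulQ ha k
  have key : ∀ i, σ.1 (g i) = g i ∧ τ.1 (g i) = g i := fun i => by
    obtain ⟨c, hc, e, e'⟩ := h.lift_g p hs f ha hv hb k i
    exact e ▸ ⟨h.fixv p hs k1 hc (h3 c hc e').1, h.fixv p hs k2 hc (h3 c hc e').2⟩
  have a0 := h3 s p.hs (h.s_t p hs f ha hv hb k)
  have a1 : σ.1 ee = ee := hs ▸ h.fixv p hs k1 p.hs a0.1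
  have a2 : τ.1 ee = ee := hs ▸ h.fixv p hs k2 p.hs a0.2
  have := h.uniq (h6 ▸ k1.conj h.toLS k2) (k2.mul h.toLS kt)
  rw [f.ab σ h7 τ h8 a1 a2 (fun i => (key i).1) (fun i => (key i).2) (h.fx_w p hs f.ew k1 kt h4 a1)
    (h.fx_w p hs f.ew k2 kt h5 a2), mul_inv_cancel_right, left_eq_mul] at this
  exact eich_ne (nsp_of f.e2 f.a4) f.ew this

theorem exists_h : ∃ y, Commute y z ∧ Commute y (a * b) ∧ y * s * y⁻¹ = s * z := by
  obtain ⟨y, hy, e1⟩ := h.toES.exists_conj p.hs p.r.ne p.ne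
  obtain ⟨c, e2⟩ := h.ch_y p hy (h.toES.not_commute_of_conj e1) (hs ▸ f.ew) (hs ▸ k)
  have h4 := h.norm y (h.central y hy).symm a ha
  have h5 := mul_mem hy (h.norm b k.1 _ (inv_mem hy))
  have h6 : χ (y * a * y⁻¹ * (y * (b * y⁻¹ * b⁻¹))) = v + w + c • ee := by
    rw [h.mul _ h4 _ h5, e2, (h.act_one.2 hy).2 a ha, OG.one_apply, ← add_assoc, hv, hs]
  have ev := (polar_comm _ _ _).trans f.ev
  have ew := (polar_comm _ _ _).trans f.ew
  have e1' := (polar_comm _ _ _).trans f.e1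
  obtain ⟨n, n1, n2, n3⟩ := h.hc_of p hs f ha hv hb k (mul_mem h4 h5)
    (by rw [h6]; simp [polar_add_right, f.ev, f.ew, two0])
    (by
      rw [h6, q_add, q_add, q_smul, qee, p_smul_right, polar_add_left, ev, ew, polar_comm, f.qv, f.vw]
      simp only [mul_zero, add_zero]; generalize q w = d; revert d; decide)
    (by rw [h6]; simp [polar_add_right, f.vw, ew, two0])
    (nsp_of f.e1 (by rw [h6]; simp [polar_add_right, f.a1, f.a2, e1']))
    (nsp_of f.e1 (by rw [h6]; simp [polar_add_right, f.a1, f.a2, e1']))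
  refine ⟨n⁻¹ * y, n1.inv_left.mul_left (h.central y hy).symm, Inv.commute_iff_conj.2 ?_, ?_⟩
  · rw [show n⁻¹ * y * (a * b) * (n⁻¹ * y)⁻¹ = n⁻¹ * (y * a * y⁻¹ * (y * (b * y⁻¹ * b⁻¹)) * b) * n by
      group, ← n3]
    group
  · rw [show n⁻¹ * y * s * (n⁻¹ * y)⁻¹ = n⁻¹ * (y * s * y⁻¹) * n⁻¹⁻¹ by group, e1,
      Inv.commute_iff_conj.1 (n2.mul_right n1).inv_left]

theorem exists_P : ∃ P : Subgroup G, IsPGroup 2 P ∧ (∀ y ∈ P, Commute y (a * b)) ∧
    (∀ y ∈ P, Commute y z) ∧ (∃ y ∈ P, ¬ Commute y s) ∧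
      ∀ y, Commute y (a * b) → (∃ u, polar q ee u = 0 ∧ Act Q z χ y (eich q ee u)) → y ∈ P := by
  let X : Subgroup G :=
    { carrier := {y | Commute y (a * b) ∧ ∃ u, polar q ee u = 0 ∧ Act Q z χ y (eich q ee u)}
      mul_mem' := fun ⟨a1, u, a2, a3⟩ ⟨b1, u', b2, b3⟩ => ⟨a1.mul_left b1, u + u', by
        rw [polar_add_right, a2, b2, add_zero], eich_mul qee a2 b2 ▸ a3.mul h.toLS b3⟩
      one_mem' := ⟨Commute.one_left _, 0, by simp, by simpa using h.act_one.2 (one_mem _)⟩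
      inv_mem' := fun ⟨a1, u, a2, a3⟩ => ⟨a1.inv_left, u, a2,
        inv_eq_of_mul_eq_one_left (eich_sq qee a2) ▸ a3.inv h.toLS⟩ }
  have hX : IsPGroup 2 X := fun ⟨y, _, u, a2, a3⟩ => ⟨3, Subtype.ext (by
    have := es_pow_four h.toES (h.act_one.1 (eich_sq qee a2 ▸ a3.mul h.toLS a3))
    rw [← pow_two, ← pow_mul] at this
    exact this)⟩
  obtain ⟨y, y1, y2, y3⟩ := h.exists_h p hs f ha hv hb k
  obtain ⟨σ, -, ky⟩ := h.ex y y1
  have y4 : σ.1 ee = ee := by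
    rw [← hs, ← ky.2 s p.hs, y3, h.mul _ p.hs _ h.mem, h.chz, add_zero]
  have y5 : y ∈ normalizer (X : Set G) := mem_normalizer_fintype fun n ⟨a1, u, a2, a3⟩ =>
    ⟨(y2.mul_left a1).mul_left y2.inv_left, σ.1 u, by rw [← y4, OG.map_polar, a2], by
      have := ky.conj h.toLS a3
      rwa [eich_conj, y4] at this⟩
  obtain ⟨j, m, ⟨l, rfl⟩, e⟩ := Nat.exists_eq_two_pow_mul_odd (orderOf_pos y).ne'
  have y6 : IsPGroup 2 (zpowers (y ^ (2 * l + 1))) := IsPGroup.of_card_dvd_pow (n := j) (by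
    rw [Nat.card_zpowers, orderOf_dvd_iff_pow_eq_one, ← pow_mul, mul_comm _ (2 ^ j), ← e,
      pow_orderOf_eq_one])
  have l1 : X ≤ centralizer {a * b} := fun x hx => Inv.mem_centralizer_single.2 hx.1
  have l2 : X ≤ centralizer {z} := fun x ⟨_, _, _, hx⟩ => Inv.mem_centralizer_single.2 hx.1
  refine ⟨X ⊔ zpowers (y ^ (2 * l + 1)), hX.to_sup_of_normal_left' y6
    (zpowers_le.2 (pow_mem y5 _)), fun x hx => Inv.mem_centralizer_single.1 (sup_le l1
      (zpowers_le.2 (Inv.mem_centralizer_single.2 (y2.pow_left _))) hx),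
    fun x hx => Inv.mem_centralizer_single.1 (sup_le l2 (zpowers_le.2
        (Inv.mem_centralizer_single.2 (y1.pow_left _))) hx),
    ⟨_, mem_sup_right (mem_zpowers _), fun e => h.toES.not_commute_of_conj y3 ?_⟩,
    fun x h1 h2 => mem_sup_left ⟨h1, h2⟩⟩
  have y7 : Commute (y ^ 2) s := by
    rw [Inv.commute_iff_conj, pow_two, show y * y * s * (y * y)⁻¹ = y * (y * s * y⁻¹) * y⁻¹ by group, y3,
      show y * (s * z) * y⁻¹ = y * s * y⁻¹ * (y * z * y⁻¹) by group, y3, Inv.commute_iff_conj.1 y1,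
      mul_assoc, h.zsq, mul_one]
  have := (y7.pow_left l).inv_left.mul_left e
  rwa [pow_succ y (2 * l), pow_mul, inv_mul_cancel_left] at this

end

end CO

end Cfsg.Agent.CoI
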