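import Cfsg.Agent.CoI.H

/-! Groups of Conway type have three classes of involutions: conclusion. -/

set_option autoImplicit false
set_option linter.unusedSectionVars false
set_option linter.unusedSimpArgs false
set_option linter.unusedVariables false

namespace Cfsg.Agent.CoI

open Cfsg Subgroup LocalEven Fischer PLocal Orth QuadraticMap Module

variable {G : Type*} [Group G] [Finite G] {Q R R1 : Subgroup G} {z s s1 : G} {χ : G → V}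

theorem cj_sq {x : G} (n : G) (hx : x * x = 1) : n * x * n⁻¹ * (n * x * n⁻¹) = 1 := by
  rw [show n * x * n⁻¹ * (n * x * n⁻¹) = n * (x * x) * n⁻¹ by group, hx]; group

namespace CO
variable (h : CO Q z χ) (p : Pr Q R z s) (hs : χ s = ee) {n a1 b1 a2 b2 : G}
  (hn : n * z * n⁻¹ = s) (ha1 : a1 ∈ Q) (hv1 : χ a1 = E 2) (hb1 : b1 ∈ R)
  (k1 : Act Q z χ b1 (eich q ee (E 1))) (ha2 : a2 ∈ Q) (hv2 : χ a2 = v1) (hb2 : b2 ∈ R)
  (k2 : Act Q z χ b2 (eich q ee w1))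
include h p hs hn ha1 hv1 hb1 k1 ha2 hv2 hb2 k2

theorem cls2 {x : G} {σ : OG q} (hx : x * x = 1) (k : Act Q z χ x σ) (h2 : σ = 1 ∨ rk σ = 2) :
    ZT Q z x ∨ HC z (a1 * b1) x ∨ HC z (a2 * b2) x := by
  rcases h2 with rfl | h2
  · exact .inl ⟨1, by simpa using h.mem, by rw [cj_one]; exact h.act_one.1 k⟩
  obtain ⟨τ, h3, w, hw, e⟩ := om_cls2 (h.uniq (k.mul h.toLS k) (hx ▸ h.act_one.2 (one_mem _))) h2
  obtain ⟨m, km⟩ := h.lift τ h3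
  have k' := e ▸ km.conj h.toLS k
  rcases hw with rfl | rfl
  · exact (h.cls0 p hs fr1 ha1 hv1 hb1 k1 hn (cj_sq m hx) k').imp (ZT.conj h.toLS km.1)
      fun e => .inl (e.conj km.1)
  · exact (h.cls0 p hs fr2 ha2 hv2 hb2 k2 hn (cj_sq m hx) k').imp (ZT.conj h.toLS km.1)
      fun e => .inr (e.conj km.1)

theorem cls {x : G} (hz : Commute x z) (hx : x * x = 1) :
    (ZT Q z x ∨ HC z (a1 * b1) x ∨ HC z (a2 * b2) x) ∨
      ∃ m α, Commute m z ∧ Al α ∧ Act Q z χ (m * x * m⁻¹) (rho α) := by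
  obtain ⟨σ, h1, k⟩ := h.ex x hz
  have h2 := h.uniq (k.mul h.toLS k) (hx ▸ h.act_one.2 (one_mem _))
  by_cases h3 : σ = 1 ∨ rk σ = 2
  · exact .inl (h.cls2 p hs hn ha1 hv1 hb1 k1 ha2 hv2 hb2 k2 hx k h3)
  obtain ⟨τ, h4, α, h5, e⟩ := om_cls4 h2
    ((rk_cases h1 h2 fun e => h3 (.inl e)).resolve_left fun e => h3 (.inr e))
  obtain ⟨m, km⟩ := h.lift τ h4
  exact .inr ⟨m, α, km.1, h5, e ▸ km.conj h.toLS k⟩

theorem nocomm {x : G} (hz : Commute x z) (hx : x * x = 1) (h1 : ¬ ZT Q z x) : ¬ NCm Q z x := by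
  intro h2
  rcases h.cls p hs hn ha1 hv1 hb1 k1 ha2 hv2 hb2 k2 hz hx with
    (e | ⟨m, e, rfl⟩ | ⟨m, e, rfl⟩) | ⟨m, α, e, h3, h4⟩
  · exact h1 e
  · exact h.ncf p hs fr1 ha1 hv1 hb1 k1 (by simpa [mul_assoc] using h2.conj h.toLS e.inv_left)
  · exact h.ncf p hs fr2 ha2 hv2 hb2 k2 (by simpa [mul_assoc] using h2.conj h.toLS e.inv_left)
  · exact h.nc4 p hs h3 (cj_sq m hx) h4 (h2.conj h.toLS e)

section
variable {v w c1 c2 : V} {g : Fin 4 → V} (f : FR v w c1 c2 g) {a b : G}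
  (ha : a ∈ Q) (hv : χ a = v) (hb : b ∈ R) (k : Act Q z χ b (eich q ee w))
include f ha hv hb k

theorem nconj : ¬ IsConj z (a * b) := by
  intro hc
  obtain ⟨m, hm⟩ := isConj_iff.1 hc
  have kt := h.mulQ ha k
  have nz := h.nzt p hs f ha hv hb k
  have tQ := h.tQ p hs f ha hv hb k
  obtain ⟨y1, hy1, e1, f1⟩ := h.lift_g p hs f ha hv hb k 2
  obtain ⟨y2, hy2, e2, f2⟩ := h.lift_g p hs f ha hv hb k 3
  generalize a * b = t at *
  have l := hm ▸ h.toLS.cj m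
  have hD : ∀ d ∈ Q, d ∈ cj m Q → d = 1 := fun d hd hd' => by
    by_contra d1
    have d2 : d * d = 1 := by
      rcases h.sq d hd with e | e
      · exact e
      · exact (l.sq d hd').resolve_right fun e' => tQ (e' ▸ e ▸ h.mem)
    obtain ⟨u, rfl⟩ := h.all p hs hn hd d1 d2
    refine nz ⟨u, hd, ?_⟩
    have := h.toLS.symm (g := m⁻¹ * u) (by simpa [mul_assoc] using mem_cj.1 hd')
    rw [← hm, mem_cj]
    simpa [mul_assoc] using mem_cj.1 this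
  have zz : Commute (m⁻¹ * z * m) z := ((commute_cj_iff m z z).1 (hm ▸ kt.1)).symm
  have u1 : ∀ y, Commute y t → Commute (m⁻¹ * y * m) z := fun y e => by
    have := cjc m⁻¹ e
    rwa [inv_inv, ← hm, show m⁻¹ * (m * z * m⁻¹) * m = z by group] at this
  have u2 : ∀ y ∈ Q, Commute (m⁻¹ * y * m) (m⁻¹ * z * m) := fun y hy => by
    simpa using cjc m⁻¹ (h.central y hy).symm
  have u3 : ∀ y ∈ Q, Commute y t → ∀ c ∈ Q, Commute c (m⁻¹ * z * m) → Commute c (m⁻¹ * y * m) :=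
    fun y hy e c hc e' => by
      have t1 := (commute_cj_iff m c z).2 e'
      have t2 := conj_mem_cj (g := m) hc
      rw [← commute_cj_iff]
      generalize m * c * m⁻¹ = d at t1 t2
      have := hD _ (mul_mem (h.norm d t1 y hy) (inv_mem hy)) (by
        simpa [mul_assoc] using mul_mem t2 (l.norm y e _ (inv_mem t2)))
      exact Inv.commute_iff_conj.2 (mul_inv_eq_one.1 this)
  refine h.nocomm p hs hn ha1 hv1 hb1 k1 ha2 hv2 hb2 k2 zz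
    (by simpa using cj_sq m⁻¹ h.zsq) (fun ⟨u, h1, h2⟩ => nz ⟨m * u, ?_, ?_⟩)
    ⟨_, _, u1 y1 f1, u1 y2 f2, fun c hc e => ⟨u3 y1 hy1 f1 c hc e, u3 y2 hy2 f2 c hc e⟩,
      u2 y1 hy1, u2 y2 hy2, ?_⟩
  · rw [← mem_cj_inv]
    apply h.toLS.symm
    simpa [mul_assoc] using mem_cj.1 h2
  · rw [← hm, mem_cj]
    simpa [mul_assoc] using mem_cj.1 (h.toLS.symm h1)
  · rw [show m⁻¹ * y1 * m * (m⁻¹ * y2 * m) * (m⁻¹ * y1 * m)⁻¹ = m⁻¹ * (y1 * y2 * y1⁻¹) * m by group,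
      h.toES.conj_eq hy1 hy2 (by rw [h.com hy1 hy2, e1, e2, f.g23]; decide)]
    group

theorem uniqZ : ∃ P : Subgroup G, IsPGroup 2 P ∧ (∀ y ∈ P, Commute y (a * b)) ∧
    (∀ y ∈ P, Commute y z) ∧ ∀ z0, IsConj z z0 → (∀ y ∈ P, Commute z0 y) → z0 = z := by
  obtain ⟨P, h1, h2, h3, ⟨y, hy, ys⟩, h4⟩ := h.exists_P p hs f ha hv hb k
  refine ⟨P, h1, h2, h3, fun z0 hc h5 => ?_⟩
  have hQ : ∀ c ∈ Q, Commute c (a * b) → Commute c z0 := fun c hc e =>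
    (h5 c (h4 c e ⟨0, by simp, by simpa using h.act_one.2 hc⟩)).symm
  have zz := (hQ z h.mem (h.mulQ ha k).1.symm).symm
  have zs := (hQ s p.hs (h.s_t p hs f ha hv hb k)).symm
  obtain ⟨m, hm⟩ := isConj_iff.1 hc
  have z2 : z0 * z0 = 1 := hm ▸ cj_sq m h.zsq
  obtain ⟨σ, -, k0⟩ := h.ex z0 zz
  have f0 : σ.1 ee = ee := hs ▸ h.fixv p hs k0 p.hs zs.symm
  obtain ⟨a', ha', e'⟩ := h.surj c2
  obtain ⟨b', hb', k'⟩ := h.exists_B p (w := c1) (hs ▸ f.e1)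
  have as := ((h.com p.hs ha).2 (hs ▸ hv ▸ f.ev)).symm
  have as' := ((h.com p.hs ha').2 (hs ▸ e' ▸ f.e2)).symm
  have r1 : Commute z0 (a' * b') := h5 _ (h4 _ (by
    rw [h.comm_R p ha' as' hb' (hs ▸ f.e1) k' ha as hb (hs ▸ f.ew) (hs ▸ k), hv, e', f.a1, f.a3,
      f.a2, polar_comm, f.a4]; simp) ⟨c1, f.e1, hs ▸ h.mulQ ha' k'⟩)
  have gi : ∀ i, ∃ c ∈ Q, χ c = g i ∧ Commute c z0 := fun i => by
    obtain ⟨c, hc, e, e''⟩ := h.lift_g p hs f ha hv hb k i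
    exact ⟨c, hc, e, hQ c hc e''⟩
  obtain ⟨w0, hw0, rfl⟩ := triv1 f.gen f0 (fun i => by
    obtain ⟨c, hc, e, e''⟩ := gi i
    exact .of (e ▸ h.fixv p hs k0 hc e'')) (h.fx_w p hs f.e1 k0 (hs ▸ h.mulQ ha' k') r1 f0) (by
      have t1 := h.norm z0 zz a' ha'
      obtain ⟨c, t2, -⟩ := h.chU p (h.inf p (mul_mem (inv_mem ha') t1) (by
        rw [show a'⁻¹ * (z0 * a' * z0⁻¹) = a'⁻¹ * (z0 * (a' * b') * z0⁻¹) * (z0 * b'⁻¹ * z0⁻¹) by group,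
          Inv.commute_iff_conj.1 r1, inv_mul_cancel_left]
        exact mul_mem hb' (p.r.norm z0 zs _ (inv_mem hb'))))
      rw [h.mul _ (inv_mem ha') _ t1, h.inv ha', k0.2 a' ha', e', hs] at t2
      exact ⟨c, by rw [← t2, ← add_assoc, vv, zero_add]⟩)
  obtain ⟨b0, hb0, kb⟩ := h.exists_B p (w := w0) (hs ▸ hw0)
  have ha0 := h.diff k0 (hs ▸ kb)
  have as0 := zs.mul_left (p.r.central b0 hb0).symm.inv_left
  have e0 : z0 = z0 * b0⁻¹ * b0 := by group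
  generalize z0 * b0⁻¹ = a0 at ha0 as0 e0
  have hv0 : polar q ee (χ a0) = 0 := hs ▸ (h.com p.hs ha0).1 as0.symm
  have gj : ∀ i, polar q (g i) (χ a0) = 0 ∧ polar q (g i) w0 = 0 := fun i => by
    obtain ⟨c, hc, e, e''⟩ := gi i
    rw [e0, h.com_ab p hs ha0 as0 hb0 hw0 (hs ▸ kb) hc (e ▸ (f.g0 i).1), e] at e''
    exact ⟨(polar_comm _ _ _).trans e''.1, (polar_comm _ _ _).trans e''.2⟩
  rw [e0, h.comm_R p ha0 as0 hb0 (hs ▸ hw0) kb ha' as' hb' (hs ▸ f.e1) k', e', polar_comm q w0,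
    polar_comm q (χ a0), polar_comm q w0] at r1
  rcases fin_chk2 _ _ _ _ r1.1 r1.2 with ⟨t1, t2, t3, t4⟩ | ⟨t1, t2, t3⟩
  · have s1 := f.span _ hv0 fun i => (gj i).1
    have s2 := f.span _ hw0 fun i => (gj i).2
    simp only [t1, t2, t3, t4, zero_smul, add_zero] at s1 s2
    rw [s2, eich_smul_self qee] at k0
    have s3 := h.act_one.1 k0
    rw [s2, hs, eich_smul_self qee] at kb
    have s4 := h.act_one.1 kb
    obtain ⟨c, s5, -⟩ := h.chU p (h.inf p s4 hb0)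
    have s6 := h.inU_of p s3 (by
      rw [e0, h.mul _ ha0 _ s4, s5, s1, hs, ← add_smul]
      exact Submodule.smul_mem _ _ (Submodule.mem_span_singleton_self _))
    refine (s6.of_comm (h3 y hy) ys (h5 y hy).symm).resolve_left fun e => h.ne ?_
    rw [← hm] at e
    simpa using e
  · exfalso
    have s1 : z0 ∉ Q := fun e => eich_ne (t1.elim (nsp_of f.e1) (nsp_of f.e2)) hw0
      (h.uniq k0 (h.act_one.2 e))
    rcases h.cls2 p hs hn ha1 hv1 hb1 k1 ha2 hv2 hb2 k2 z2 k0 (rk_le_two (eich_Om _ _)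
      (eich_sq qee hw0) (eich_apply_of_orth qee hw0 (f.g0 2).1 ((polar_comm _ _ _).trans (gj 2).2))
      (eich_apply_of_orth qee hw0 (f.g0 3).1 ((polar_comm _ _ _).trans (gj 3).2)) f.g23) with
      e | ⟨u, -, e⟩ | ⟨u, -, e⟩
    · obtain ⟨c, hc, s2⟩ := h.surj (polar q c2 w0 • c1 + polar q c1 w0 • c2)
      have s3 : polar q ee (χ c) = 0 := by rw [s2]; simp [polar_add_right, f.e1, f.e2]
      have := h.lam p e s1 k0 hc (eich_apply_of_orth qee hw0 s3 (by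
        rw [s2, polar_comm, polar_add_left, p_smul_left, p_smul_left, t3]))
      rw [e0, h.com_ab p hs ha0 as0 hb0 hw0 (hs ▸ kb) hc s3, s2, polar_comm, polar_add_left,
        p_smul_left, p_smul_left] at this
      exact t2 this.1
    · exact h.nconj p hs hn ha1 hv1 hb1 k1 ha2 hv2 hb2 k2 fr1 ha1 hv1 hb1 k1
        (hc.trans (isConj_iff.2 ⟨u, e⟩).symm)
    · exact h.nconj p hs hn ha1 hv1 hb1 k1 ha2 hv2 hb2 k2 fr2 ha2 hv2 hb2 k2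
        (hc.trans (isConj_iff.2 ⟨u, e⟩).symm)

end

theorem nconj12 : ¬ IsConj (a1 * b1) (a2 * b2) := by
  intro hc
  obtain ⟨m, hm⟩ := isConj_iff.1 hc
  obtain ⟨P1, f1, f2, -, f4⟩ := h.uniqZ p hs hn ha1 hv1 hb1 k1 ha2 hv2 hb2 k2 fr1 ha1 hv1 hb1 k1
  obtain ⟨P2, g1, g2, g3, g4⟩ := h.uniqZ p hs hn ha1 hv1 hb1 k1 ha2 hv2 hb2 k2 fr2 ha2 hv2 hb2 k2
  obtain ⟨u, h1, h2⟩ := syl_into g1 g2 g3 g4 (S := cj m P1) (f1.map _) fun y hy => by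
    obtain ⟨x, hx, rfl⟩ := mem_cj'.1 hy
    exact hm ▸ cjc m (f2 x hx)
  have h3 := f4 ((u * m)⁻¹ * z * (u * m)) (isConj_iff.2 ⟨(u * m)⁻¹, by rw [inv_inv]⟩) fun y hy => by
    have := h2 _ (conj_mem_cj hy)
    rw [show u * (m * y * m⁻¹) * u⁻¹ = u * m * y * (u * m)⁻¹ by group, commute_cj_iff] at this
    exact this.symm
  have h4 : Commute (u * m) z := by
    rw [mul_assoc, inv_mul_eq_iff_eq_mul] at h3
    exact h3.symm
  obtain ⟨σ, -, k⟩ := h.ex _ h4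
  have h5 := k.conj h.toLS (h.mulQ ha1 k1)
  rw [show u * m * (a1 * b1) * (u * m)⁻¹ = u * (m * (a1 * b1) * m⁻¹) * u⁻¹ by group, hm,
    Inv.commute_iff_conj.1 h1] at h5
  have := ((nd.isConj_iff_char_two two0 (eich_sq qee fr1.ew) (eich_sq qee fr2.ew)).1
    (isConj_iff.2 ⟨σ, h.uniq h5 (h.mulQ ha2 k2)⟩)).2
  rw [sing_eich ee0 qee fr1.ew, sing_eich ee0 qee fr2.ew, qE, qw1] at this
  exact absurd (this.1 rfl) (by decide)

end CO

theorem main (h : LS Q z) (hc : Nat.card Q = 2 ^ 9)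
    (hi : (Q.subgroupOf (centralizer ({z} : Set G))).index = 174182400) {g : G}
    (h1 : g * z * g⁻¹ ∈ Q) (h2 : g * z * g⁻¹ ≠ z) : ∃ a b c : G, orderOf a = 2 ∧ orderOf b = 2 ∧
      orderOf c = 2 ∧ ¬ IsConj a b ∧ ¬ IsConj a c ∧ ¬ IsConj b c ∧
        ∀ x : G, orderOf x = 2 → IsConj x a ∨ IsConj x b ∨ IsConj x c := by
  have : Fact (Nat.Prime 2) := ⟨Nat.prime_two⟩
  obtain ⟨χ, h⟩ := exists_co h hc hi
  have p0 := pr_of h.toLS h1 h2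
  have all : ∀ x ∈ Q, x ≠ 1 → x * x = 1 → ∃ k, k * z * k⁻¹ = x := fun x hx x1 x2 => by
    by_cases xz : x = z
    · exact ⟨1, by simp [xz]⟩
    obtain ⟨k, -, e⟩ := h.conj_invol h1 hx p0.r.ne h2 p0.r.zsq x1 xz x2
    exact ⟨k * g, by rw [← e]; group⟩
  have pr : ∀ i, ∃ k, χ (k * z * k⁻¹) = E i ∧ Pr Q (cj k Q) z (k * z * k⁻¹) := fun i => by
    obtain ⟨s, hs, e⟩ := h.surj (E i)
    have h3 := mt (h.zero s hs).2 (fun e' => by simpa [El] using congrFun (e.symm.trans e') (.inl i))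
    obtain ⟨k, rfl⟩ := all s hs (fun e => h3 (.inl e)) ((h.sq' s hs).2 (e ▸ qE i))
    exact ⟨k, e, pr_of h.toLS hs fun e => h3 (.inr e)⟩
  obtain ⟨k, e, p⟩ := pr 0
  obtain ⟨k', e', p'⟩ := pr 1
  obtain ⟨a1, ha1, hv1⟩ := h.surj (E 2)
  obtain ⟨b1, hb1, k1⟩ := h.exists_B p (w := E 1) (e ▸ fr1.ew)
  obtain ⟨a2, ha2, hv2⟩ := h.surj v1
  obtain ⟨b2, hb2, k2⟩ := h.exists_B p (w := w1) (e ▸ fr2.ew)
  rw [e] at k1 k2
  refine ⟨z, a1 * b1, a2 * b2, h.toES.orderOf,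
    orderOf_eq_prime (by rw [pow_two, h.t_sq p e fr1 ha1 hv1 hb1 k1])
      fun e' => h.tQ p e fr1 ha1 hv1 hb1 k1 (e' ▸ one_mem _),
    orderOf_eq_prime (by rw [pow_two, h.t_sq p e fr2 ha2 hv2 hb2 k2])
      fun e' => h.tQ p e fr2 ha2 hv2 hb2 k2 (e' ▸ one_mem _),
    h.nconj p e rfl ha1 hv1 hb1 k1 ha2 hv2 hb2 k2 fr1 ha1 hv1 hb1 k1,
    h.nconj p e rfl ha1 hv1 hb1 k1 ha2 hv2 hb2 k2 fr2 ha2 hv2 hb2 k2,
    h.nconj12 p e rfl ha1 hv1 hb1 k1 ha2 hv2 hb2 k2, fun x hx => ?_⟩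
  have key : ∀ y, IsConj x y → (ZT Q z y ∨ HC z (a1 * b1) y ∨ HC z (a2 * b2) y) →
      IsConj x z ∨ IsConj x (a1 * b1) ∨ IsConj x (a2 * b2) := fun y hy c => by
    have y0 : orderOf y = 2 := by
      obtain ⟨u, rfl⟩ := isConj_iff.1 hy
      rwa [← MulAut.conj_apply, MulEquiv.orderOf_eq]
    have y2 : y * y = 1 := by rw [← pow_two, ← y0, pow_orderOf_eq_one]
    have y1 : y ≠ 1 := fun e => by simp [e] at y0
    rcases c with ⟨m, -, h4⟩ | ⟨m, -, h4⟩ | ⟨m, -, h4⟩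
    · obtain ⟨l, h5⟩ := all _ (mem_cj.1 h4) (fun e => y1 (by
        rw [show y = m * (m⁻¹ * y * m) * m⁻¹ by group, e]; group)) (by simpa using cj_sq m⁻¹ y2)
      exact .inl (hy.trans (isConj_iff.2 ⟨m * l, by
        rw [show m * l * z * (m * l)⁻¹ = m * (l * z * l⁻¹) * m⁻¹ by group, h5]; group⟩).symm)
    · exact .inr (.inl (hy.trans (isConj_iff.2 ⟨m, h4⟩).symm))
    · exact .inr (.inr (hy.trans (isConj_iff.2 ⟨m, h4⟩).symm))
  have x2 : x * x = 1 := by rw [← pow_two, ← hx, pow_orderOf_eq_one]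
  obtain ⟨n, hn⟩ := exists_cent h.toLS x2
  rcases h.cls p e rfl ha1 hv1 hb1 k1 ha2 hv2 hb2 k2 hn (cj_sq n x2) with c | ⟨m, α, -, h4, h5⟩
  · exact key _ (isConj_iff.2 ⟨n, rfl⟩) c
  · obtain ⟨l, σ, h6, h7⟩ := h.red p e p' e' h4 (cj_sq m (cj_sq n x2)) h5
    exact key _ (((isConj_iff.2 ⟨n, rfl⟩).trans (isConj_iff.2 ⟨m, rfl⟩)).trans (isConj_iff.2 ⟨l, rfl⟩))
      (h.cls2 p e rfl ha1 hv1 hb1 k1 ha2 hv2 hb2 k2 (cj_sq l (cj_sq m (cj_sq n x2))) h6 h7)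

end Cfsg.Agent.CoI
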